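/-
Structure of groups with a large extraspecial 2-subgroup (helper18).
-/
import Cfsg.Agent.Lib.LargeX.Basic
import Cfsg.Agent.Lib.Components.Layer2
import Cfsg.Agent.Lib.Components.PComp2
import Cfsg.Agent.S5421

set_option autoImplicit false
set_option linter.unusedSectionVars false
set_option linter.style.haveILetI false

namespace Cfsg.Agent.Lib.LargeX.SS

open Subgroup Cfsg Cfsg.Agent.Lib.TwoFusion Cfsg.Agent.Lib.Components

variable {G : Type*} [Group G]

/-- The conjugate subgroup. -/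
abbrev cj (g : G) (L : Subgroup G) : Subgroup G := L.map (MulAut.conj g).toMonoidHom

theorem mem_cj {g x : G} {L : Subgroup G} : x ∈ cj g L ↔ g⁻¹ * x * g ∈ L := by
  constructor
  · rintro ⟨l, hl, rfl⟩
    have : g⁻¹ * ((MulAut.conj g).toMonoidHom l) * g = l := by
      show g⁻¹ * (g * l * g⁻¹) * g = l
      group
    rw [this]
    exact hl
  · intro h
    refine ⟨_, h, ?_⟩
    show g * (g⁻¹ * x * g) * g⁻¹ = x
    group

theorem conj_mem_cj {g x : G} {L : Subgroup G} (hx : x ∈ L) : g * x * g⁻¹ ∈ cj g L :=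
  ⟨x, hx, rfl⟩

theorem cj_one (L : Subgroup G) : cj 1 L = L := by
  ext x
  rw [mem_cj]
  simp

theorem cj_mul (a b : G) (L : Subgroup G) : cj (a * b) L = cj a (cj b L) := by
  ext x
  rw [mem_cj, mem_cj, mem_cj]
  have : (a * b)⁻¹ * x * (a * b) = b⁻¹ * (a⁻¹ * x * a) * b := by group
  rw [this]

theorem cj_inv_cj (a : G) (L : Subgroup G) : cj a⁻¹ (cj a L) = L := by
  rw [← cj_mul, inv_mul_cancel, cj_one]

theorem cj_cj_inv (a : G) (L : Subgroup G) : cj a (cj a⁻¹ L) = L := by
  rw [← cj_mul, mul_inv_cancel, cj_one]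

theorem cj_eq_of_normal {a : G} {L : Subgroup G} (h : ∀ l ∈ L, a * l * a⁻¹ ∈ L)
    (h' : ∀ l ∈ L, a⁻¹ * l * a ∈ L) : cj a L = L := by
  ext x
  rw [mem_cj]
  constructor
  · intro hx
    have := h _ hx
    have e : a * (a⁻¹ * x * a) * a⁻¹ = x := by group
    rwa [e] at this
  · exact h' x

theorem cj_le_of_forall {a : G} {L T : Subgroup G} (h : ∀ l ∈ L, a * l * a⁻¹ ∈ T) : cj a L ≤ T := by
  rintro _ ⟨l, hl, rfl⟩
  exact h l hl

variable [Finite G]

/-- Elementwise data of a large extraspecial subgroup. -/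
structure LS (Q : Subgroup G) (z : G) : Prop where
  es : ES Q z
  cent : ∀ g : G, (∀ q ∈ Q, q * g = g * q) → g = 1 ∨ g = z
  norm : ∀ g : G, g * z = z * g → ∀ q ∈ Q, g * q * g⁻¹ ∈ Q
  odd : ∀ K : Subgroup G, Odd (Nat.card K) → (∀ q ∈ Q, ∀ k ∈ K, q * k * q⁻¹ ∈ K) → K = ⊥

theorem mem_norm_of_map_le {V : Subgroup G} {n : G} (h : ∀ a ∈ V, n * a * n⁻¹ ∈ V) :
    n ∈ normalizer (V : Set G) := by
  classical
  refine Subgroup.mem_normalizer_iff.mpr fun a => ⟨h a, fun ha => ?_⟩
  let f : V → V := fun b => ⟨n * b * n⁻¹, h b b.2⟩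
  have hf : Function.Injective f := by
    intro b c hbc
    have h1 : n * (b : G) * n⁻¹ = n * (c : G) * n⁻¹ := congrArg Subtype.val hbc
    exact Subtype.ext (mul_left_cancel (mul_right_cancel h1))
  obtain ⟨b, hb⟩ := Finite.surjective_of_injective hf ⟨_, ha⟩
  have h1 : n * (b : G) * n⁻¹ = n * a * n⁻¹ := congrArg Subtype.val hb
  have h2 : (b : G) = a := mul_left_cancel (mul_right_cancel h1)
  exact h2 ▸ b.2

theorem LS.of_large {Q : Subgroup G} (hQ : IsLargeExtraspecial Q) {z : G}
    (hz : (center ↥Q).map Q.subtype = zpowers z) : LS Q z := by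
  have hE := hQ.1
  have hzmem : z ∈ (center ↥Q).map Q.subtype := by rw [hz]; exact mem_zpowers z
  have hzQ : z ∈ Q := map_subtype_le _ hzmem
  have hzc : ∀ q ∈ Q, q * z = z * q := by
    obtain ⟨z', hz'c, e⟩ := hzmem
    intro q hq
    have := mem_center_iff.mp hz'c ⟨q, hq⟩
    rw [← e]
    exact congrArg Subtype.val this
  have hz1 : z ≠ 1 := by
    intro e
    have hcard : Nat.card (center ↥Q) = 2 := hE.2
    have h2 : (center ↥Q).map Q.subtype = ⊥ := by
      rw [hz, e]
      exact zpowers_one_eq_bot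
    have h3 : center ↥Q = ⊥ := (map_eq_bot_iff_of_injective _ Q.subtype_injective).mp h2
    rw [h3] at hcard
    simp at hcard
  have hes : ES Q z := ES'.of_extraspecial hE hzQ hz1 hzc
  refine ⟨hes, ?_, ?_, ?_⟩
  · intro g hg
    have h1 : g ∈ centralizer (Q : Set G) := by
      rw [mem_centralizer_iff]
      intro q hq
      exact hg q hq
    rw [hQ.2.1, hz, mem_zpowers_iff] at h1
    obtain ⟨k, rfl⟩ := h1
    have hzz := hes.z_sq
    rcases Int.even_or_odd' k with ⟨m, rfl | rfl⟩
    · left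
      rw [zpow_mul, zpow_two, hzz, one_zpow]
    · right
      rw [zpow_add, zpow_mul, zpow_two, hzz, one_zpow, one_mul, zpow_one]
  · intro g hg q hq
    have h1 : g ∈ centralizer (((center ↥Q).map Q.subtype : Subgroup G) : Set G) := by
      rw [hz, mem_centralizer_iff]
      intro h hh
      obtain ⟨k, rfl⟩ := mem_zpowers_iff.mp hh
      have : Commute z g := hg.symm
      exact (this.zpow_left k).eq
    have h2 := hQ.2.2.1 h1
    exact (mem_normalizer_iff.mp h2 q).mp hq
  · intro K hK hn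
    apply hQ.2.2.2 K hK
    intro q hq
    exact mem_norm_of_map_le (hn q hq)

/-- A subgroup normalized by `Q` meeting `Q` contains `z`. -/
theorem es_normal {Q : Subgroup G} {z : G} (h : ES Q z) {H : Subgroup G}
    (hn : ∀ q ∈ Q, ∀ k ∈ H, q * k * q⁻¹ ∈ H) {x : G} (hxQ : x ∈ Q) (hxH : x ∈ H) (hx1 : x ≠ 1) :
    z ∈ H := by
  by_cases hxz : x = z
  · exact hxz ▸ hxH
  · obtain ⟨b, hb, hbx⟩ := ES'.exists_noncomm h hxQ hx1 hxz
    have h1 := ES'.comm_eq h hb hxQ hbx
    rw [← h1]
    exact H.mul_mem (hn b hb x hxH) (H.inv_mem hxH)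

/-- **Lemma A**: every nontrivial subgroup normalized by `Q` contains `z`. -/
theorem LS.z_mem {Q : Subgroup G} {z : G} (h : LS Q z) {H : Subgroup G}
    (hn : ∀ q ∈ Q, ∀ k ∈ H, q * k * q⁻¹ ∈ H) (hne : H ≠ ⊥) : z ∈ H := by
  classical
  by_contra hzH
  apply hne
  have hes := h.es
  -- `H ∩ Q` is trivial
  have hHQ : ∀ x, x ∈ Q → x ∈ H → x = 1 := by
    intro x hxQ hxH
    by_contra hx1
    exact hzH (es_normal hes hn hxQ hxH hx1)
  -- `z` is fixed point free
  have hfp : ∀ c ∈ H, c * z = z * c → c = 1 := by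
    intro c hc hcz
    have hcq : ∀ q ∈ Q, q * c = c * q := by
      intro q hq
      have h1 : c * q * c⁻¹ ∈ Q := h.norm c hcz q hq
      have h2 : c * q * c⁻¹ * q⁻¹ ∈ Q := Q.mul_mem h1 (Q.inv_mem hq)
      have h3 : c * q * c⁻¹ * q⁻¹ ∈ H := by
        have e : c * q * c⁻¹ * q⁻¹ = c * (q * c⁻¹ * q⁻¹) := by group
        rw [e]
        exact H.mul_mem hc (hn q hq _ (H.inv_mem hc))
      have h4 := hHQ _ h2 h3
      have e : c * q = (c * q * c⁻¹ * q⁻¹) * (q * c) := by group
      rw [e, h4, one_mul]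
    rcases h.cent c hcq with e | e
    · exact e
    · exact absurd (e ▸ hc) hzH
  have hinv := Cfsg.Agent.S5421.inverts_of_fpf H z hes.z_sq (hn z hes.z_mem) hfp
  apply h.odd H
  · -- odd order
    rw [Nat.odd_iff, ← Nat.not_even_iff, even_iff_two_dvd]
    intro h2
    haveI : Fact (Nat.Prime 2) := ⟨Nat.prime_two⟩
    obtain ⟨t, ht⟩ := exists_prime_orderOf_dvd_card' 2 h2
    have ht2 : (t : G) * t = 1 := by
      have := congrArg Subtype.val (pow_orderOf_eq_one t)
      rw [ht] at this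
      simpa [pow_two] using this
    have ht1 : (t : G) ≠ 1 := by
      intro e
      have : t = 1 := Subtype.ext e
      rw [this, orderOf_one] at ht
      omega
    have h3 := hinv t t.2
    have htinv : (t : G)⁻¹ = t := by rw [inv_eq_iff_mul_eq_one]; exact ht2
    rw [htinv] at h3
    apply ht1
    apply hfp _ t.2
    calc (t : G) * z = (z * t * z⁻¹) * z := by rw [h3]
      _ = z * t := by group
  · exact hn

/-- A nontrivial 2-group containing `Q` centralizes `z`. -/
theorem LS.pgroup_le {Q : Subgroup G} {z : G} (h : LS Q z) {S : Subgroup G} (hS : IsPGroup 2 S)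
    (hQS : Q ≤ S) : S ≤ centralizer ({z} : Set G) := by
  haveI : Fact (Nat.Prime 2) := ⟨Nat.prime_two⟩
  have hes := h.es
  haveI : Nontrivial S := by
    refine ⟨⟨⟨z, hQS hes.z_mem⟩, 1, ?_⟩⟩
    intro e
    exact hes.z_ne (congrArg Subtype.val e)
  haveI : Nontrivial (center S) := hS.center_nontrivial
  obtain ⟨⟨a, ha⟩, ha1⟩ := exists_ne (1 : center S)
  have ha1' : (a : G) ≠ 1 := by
    intro e
    apply ha1
    apply Subtype.ext
    apply Subtype.ext
    exact e
  have hac : ∀ s ∈ S, s * (a : G) = a * s := by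
    intro s hs
    have := mem_center_iff.mp ha ⟨s, hs⟩
    exact congrArg Subtype.val this
  rcases h.cent a fun q hq => hac q (hQS hq) with e | e
  · exact absurd e ha1'
  · intro s hs
    rw [mem_centralizer_singleton_iff]
    rw [← e]
    exact hac s hs

/-- Two commuting subgroups with trivial intersection: unique decomposition. -/
theorem decomp_unique {A B : Subgroup G} (hi : ∀ x, x ∈ A → x ∈ B → x = 1)
    {a a' b b' : G} (ha : a ∈ A) (ha' : a' ∈ A) (hb : b ∈ B) (hb' : b' ∈ B)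
    (e : a * b = a' * b') : a = a' ∧ b = b' := by
  have h1 : a'⁻¹ * a = b' * b⁻¹ := by
    calc a'⁻¹ * a = a'⁻¹ * (a * b) * b⁻¹ := by group
      _ = a'⁻¹ * (a' * b') * b⁻¹ := by rw [e]
      _ = b' * b⁻¹ := by group
  have h2 : a'⁻¹ * a = 1 := hi _ (A.mul_mem (A.inv_mem ha') ha) (h1 ▸ B.mul_mem hb' (B.inv_mem hb))
  have h3 : a = a' := by
    rw [inv_mul_eq_one] at h2
    exact h2.symm
  subst h3
  exact ⟨rfl, (mul_left_cancel e)⟩

/-- A non-abelian simple group has no involution whose centralizer has order 2. -/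
theorem no_small_centralizer {X : Type*} [Group X] [Finite X] [hs : IsSimpleGroup X]
    (hna : ∃ a b : X, a * b ≠ b * a) (r : X) (hr1 : r ≠ 1) (hr2 : r * r = 1)
    (hc : ∀ l : X, l * r = r * l → l = 1 ∨ l = r) : False := by
  classical
  haveI : Fact (Nat.Prime 2) := ⟨Nat.prime_two⟩
  have hpz : IsPGroup 2 (zpowers r) := by
    have : Nat.card (zpowers r) = 2 := by
      rw [Nat.card_zpowers]
      exact orderOf_eq_prime (by rw [pow_two]; exact hr2) hr1
    exact IsPGroup.of_card (n := 1) (by simpa using this)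
  obtain ⟨P, hP⟩ := hpz.exists_le_sylow
  have hrP : r ∈ (P : Subgroup X) := hP (mem_zpowers r)
  haveI : Nontrivial (P : Subgroup X) := by
    refine ⟨⟨⟨r, hrP⟩, 1, ?_⟩⟩
    intro e
    exact hr1 (congrArg Subtype.val e)
  haveI : Nontrivial (center (P : Subgroup X)) := P.isPGroup'.center_nontrivial
  obtain ⟨⟨a, ha⟩, ha1⟩ := exists_ne (1 : center (P : Subgroup X))
  have ha1' : (a : X) ≠ 1 := by
    intro e
    apply ha1
    apply Subtype.ext
    apply Subtype.ext
    exact e
  have hac : ∀ p ∈ (P : Subgroup X), p * (a : X) = a * p := by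
    intro p hp
    exact congrArg Subtype.val (mem_center_iff.mp ha ⟨p, hp⟩)
  have har : (a : X) = r := (hc a (hac r hrP).symm).resolve_left ha1'
  have hP2 : ∀ p ∈ (P : Subgroup X), p = 1 ∨ p = r := by
    intro p hp
    exact hc p (har ▸ hac p hp)
  have hN : normalizer ((P : Subgroup X) : Set X) ≤ centralizer (P : Set X) := by
    intro n hn
    have h1 : n * r * n⁻¹ ∈ (P : Subgroup X) := (mem_normalizer_iff.mp hn r).mp hrP
    have h2 : n * r * n⁻¹ = r := by
      rcases hP2 _ h1 with e | e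
      · exfalso
        apply hr1
        have : r = n⁻¹ * (n * r * n⁻¹) * n := by group
        rw [this, e]
        group
      · exact e
    rw [mem_centralizer_iff]
    intro p hp
    rcases hP2 p hp with e | e
    · rw [e]
      simp
    · rw [e]
      calc r * n = (n * r * n⁻¹) * n := by rw [h2]
        _ = n * r := by group
  have hcompl := MonoidHom.ker_transferSylow_isComplement' P hN
  have hdisj := MonoidHom.ker_transferSylow_disjoint P hN (P : Subgroup X) P.isPGroup'
  rcases hs.eq_bot_or_eq_top_of_normal _ (MonoidHom.normal_ker (MonoidHom.transferSylow P hN)) with e | e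
  · -- `P` is everything
    have h1 := hcompl.sup_eq_top
    rw [e, bot_sup_eq] at h1
    obtain ⟨a, b, hab⟩ := hna
    apply hab
    have ha : a ∈ (P : Subgroup X) := by rw [h1]; trivial
    have hb : b ∈ (P : Subgroup X) := by rw [h1]; trivial
    rcases hP2 a ha with e1 | e1 <;> rcases hP2 b hb with e2 | e2 <;> simp [e1, e2]
  · rw [e] at hdisj
    have h1 : r ∈ (⊤ : Subgroup X) ⊓ (P : Subgroup X) := ⟨trivial, hrP⟩
    rw [hdisj.eq_bot] at h1
    exact hr1 h1

/-- Elements of an extraspecial group have order dividing 4. -/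
theorem es_four {Q : Subgroup G} {z : G} (hes : ES Q z) {w : G} (hw : w ∈ Q) : w ^ 4 = 1 := by
  have e : w ^ 4 = (w * w) * (w * w) := by simp [pow_succ, mul_assoc]
  rw [e]
  rcases hes.sq w hw with h | h <;> rw [h]
  · simp
  · exact hes.z_sq

/-- A product of commuting elements of subgroups meeting trivially. -/
theorem four_elt {A B : Subgroup G} (hi : ∀ x, x ∈ A → x ∈ B → x = 1)
    (hc : ∀ x ∈ A, ∀ y ∈ B, x * y = y * x) {a b : G} (ha : a ∈ A) (hb : b ∈ B) (hw : (a * b) ^ 4 = 1) :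
    a ^ 4 = 1 := by
  have hcm : Commute a b := hc a ha b hb
  rw [hcm.mul_pow] at hw
  apply hi _ (A.pow_mem ha 4)
  have : a ^ 4 = (b ^ 4)⁻¹ := eq_inv_of_mul_eq_one_left hw
  rw [this]
  exact B.inv_mem (B.pow_mem hb 4)

/-- Minimal nontrivial subgroups of `M` normalized by `M`. -/
structure MinN (M L : Subgroup G) : Prop where
  ne : L ≠ ⊥
  le : L ≤ M
  nrm : ∀ m ∈ M, ∀ l ∈ L, m * l * m⁻¹ ∈ L
  min : ∀ H : Subgroup G, H ≠ ⊥ → H ≤ L → (∀ m ∈ M, ∀ h ∈ H, m * h * m⁻¹ ∈ H) → H = L

theorem exists_minN {M : Subgroup G} (hne : M ≠ ⊥) : ∃ L, MinN M L := by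
  classical
  let P : Subgroup G → Prop := fun H => H ≠ ⊥ ∧ H ≤ M ∧ ∀ m ∈ M, ∀ h ∈ H, m * h * m⁻¹ ∈ H
  obtain ⟨L, hL⟩ := exists_minimal_of_wellFoundedLT P
    ⟨M, hne, le_rfl, fun m hm h hh => M.mul_mem (M.mul_mem hm hh) (M.inv_mem hm)⟩
  refine ⟨L, hL.1.1, hL.1.2.1, hL.1.2.2, ?_⟩
  intro H hHne hle hn
  exact le_antisymm hle (hL.2 ⟨hHne, hle.trans hL.1.2.1, hn⟩ hle)

theorem cj_ne_bot {L : Subgroup G} (h : L ≠ ⊥) (g : G) : cj g L ≠ ⊥ := by
  intro e
  apply h
  rw [← cj_inv_cj g L, e]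
  exact Subgroup.map_bot _

theorem MinN.conj {M L : Subgroup G} (hM : M.Normal) (h : MinN M L) (g : G) : MinN M (cj g L) := by
  refine ⟨cj_ne_bot h.ne g, ?_, ?_, ?_⟩
  · rintro _ ⟨l, hl, rfl⟩
    exact hM.conj_mem l (h.le hl) g
  · intro m hm x hx
    rw [mem_cj] at hx ⊢
    have h1 : g⁻¹ * m * g ∈ M := by
      have := hM.conj_mem m hm g⁻¹
      simpa using this
    have h2 := h.nrm _ h1 _ hx
    have e : g⁻¹ * (m * x * m⁻¹) * g = g⁻¹ * m * g * (g⁻¹ * x * g) * (g⁻¹ * m * g)⁻¹ := by group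
    rw [e]
    exact h2
  · intro H hne hle hn
    have h1 : cj g⁻¹ H = L := by
      apply h.min
      · exact cj_ne_bot hne _
      · rw [← cj_inv_cj g L]
        exact Subgroup.map_mono hle
      · intro m hm x hx
        rw [mem_cj] at hx ⊢
        simp only [inv_inv] at hx ⊢
        have h1 : g * m * g⁻¹ ∈ M := hM.conj_mem m hm g
        have h2 := hn _ h1 _ hx
        have e : g * (m * x * m⁻¹) * g⁻¹ = g * m * g⁻¹ * (g * x * g⁻¹) * (g * m * g⁻¹)⁻¹ := by group
        rw [e]
        exact h2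
    rw [← h1, cj_cj_inv]

theorem MinN.pair {M T T' : Subgroup G} (h : MinN M T) (h' : MinN M T') (hne : T ≠ T') :
    (∀ x, x ∈ T → x ∈ T' → x = 1) ∧ ∀ x ∈ T, ∀ y ∈ T', x * y = y * x := by
  have hi : ∀ x, x ∈ T → x ∈ T' → x = 1 := by
    have hb : T ⊓ T' = ⊥ := by
      by_contra hb
      have h1 : T ⊓ T' = T := h.min _ hb inf_le_left fun m hm x hx =>
        ⟨h.nrm m hm x hx.1, h'.nrm m hm x hx.2⟩
      have h2 : T ⊓ T' = T' := h'.min _ hb inf_le_right fun m hm x hx =>
        ⟨h.nrm m hm x hx.1, h'.nrm m hm x hx.2⟩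
      exact hne (h1.symm.trans h2)
    intro x hx hx'
    have : x ∈ T ⊓ T' := ⟨hx, hx'⟩
    rw [hb] at this
    exact this
  refine ⟨hi, ?_⟩
  intro x hx y hy
  have h1 : x * y * x⁻¹ * y⁻¹ ∈ T := by
    have e : x * y * x⁻¹ * y⁻¹ = x * (y * x⁻¹ * y⁻¹) := by group
    rw [e]
    exact T.mul_mem hx (h.nrm y (h'.le hy) _ (T.inv_mem hx))
  have h2 : x * y * x⁻¹ * y⁻¹ ∈ T' := T'.mul_mem (h'.nrm x (h.le hx) y hy) (T'.inv_mem hy)
  have h3 := hi _ h1 h2
  calc x * y = (x * y * x⁻¹ * y⁻¹) * (y * x) := by group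
    _ = y * x := by rw [h3, one_mul]

/-- The context of the non-abelian case. -/
structure Ctx (Q M L : Subgroup G) (z : G) : Prop where
  ls : LS Q z
  hM : M = normalClosure ({z} : Set G)
  nab : ∃ a ∈ M, ∃ b ∈ M, a * b ≠ b * a
  mn : MinN M L

namespace Ctx

variable {Q M L : Subgroup G} {z : G}

theorem normal (h : Ctx Q M L z) : M.Normal := h.hM ▸ normalClosure_normal

theorem z_mem (h : Ctx Q M L z) : z ∈ M := by
  rw [h.hM]
  exact subset_normalClosure rfl

theorem le_normal (h : Ctx Q M L z) {N : Subgroup G} (hN : N.Normal) (hz : z ∈ N) : M ≤ N := by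
  rw [h.hM]
  apply normalClosure_le_normal
  simpa using hz

theorem conj (h : Ctx Q M L z) (g : G) : Ctx Q M (cj g L) z :=
  ⟨h.ls, h.hM, h.nab, h.mn.conj h.normal g⟩

theorem sup_eq (h : Ctx Q M L z) : (⨆ g, cj g L) = M := by
  apply le_antisymm
  · exact iSup_le fun g => (h.mn.conj h.normal g).le
  · apply h.le_normal
    · constructor
      intro x hx n
      have h1 : (⨆ g, cj g L).map (MulAut.conj n).toMonoidHom ≤ ⨆ g, cj g L := by
        rw [Subgroup.map_iSup]
        refine iSup_le fun g => ?_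
        have : ((cj g L).map (MulAut.conj n).toMonoidHom) = cj (n * g) L := (cj_mul n g L).symm
        rw [this]
        exact le_iSup (fun g => cj g L) (n * g)
      exact h1 ⟨x, hx, rfl⟩
    · apply h.ls.z_mem
      · intro q _ k hk
        have h1 : (⨆ g, cj g L).map (MulAut.conj q).toMonoidHom ≤ ⨆ g, cj g L := by
          rw [Subgroup.map_iSup]
          refine iSup_le fun g => ?_
          have : ((cj g L).map (MulAut.conj q).toMonoidHom) = cj (q * g) L := (cj_mul q g L).symm
          rw [this]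
          exact le_iSup (fun g => cj g L) (q * g)
        exact h1 ⟨k, hk, rfl⟩
      · intro e
        apply h.mn.ne
        have h2 := le_iSup (fun g => cj g L) 1
        rw [e] at h2
        simp only [cj_one] at h2
        exact le_bot_iff.mp h2

theorem M_ind (h : Ctx Q M L z) {P : G → Prop} (h1 : P 1) (hmul : ∀ a b, P a → P b → P (a * b))
    (hgen : ∀ g, ∀ x ∈ cj g L, P x) : ∀ m ∈ M, P m := by
  intro m hm
  rw [← h.sup_eq] at hm
  exact Subgroup.iSup_induction (fun g => cj g L) (C := P) hm hgen h1 hmul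

theorem pair (h : Ctx Q M L z) (g : G) (hne : cj g L ≠ L) :
    (∀ x, x ∈ L → x ∈ cj g L → x = 1) ∧ ∀ x ∈ L, ∀ y ∈ cj g L, x * y = y * x :=
  h.mn.pair (h.mn.conj h.normal g) hne.symm

/-- `L` is not abelian. -/
theorem nabL (h : Ctx Q M L z) : ∃ a ∈ L, ∃ b ∈ L, a * b ≠ b * a := by
  by_contra hcon
  push Not at hcon
  have hcj : ∀ g, ∀ a ∈ cj g L, ∀ b ∈ cj g L, a * b = b * a := by
    rintro g _ ⟨a, ha, rfl⟩ _ ⟨b, hb, rfl⟩
    show g * a * g⁻¹ * (g * b * g⁻¹) = g * b * g⁻¹ * (g * a * g⁻¹)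
    have e1 : g * a * g⁻¹ * (g * b * g⁻¹) = g * (a * b) * g⁻¹ := by group
    have e2 : g * b * g⁻¹ * (g * a * g⁻¹) = g * (b * a) * g⁻¹ := by group
    rw [e1, e2, hcon a ha b hb]
  have h1 : ∀ g, ∀ x ∈ cj g L, ∀ m ∈ M, x * m = m * x := by
    intro g x hx
    refine h.M_ind (P := fun m => x * m = m * x) ?_ ?_ ?_
    · simp
    · intro a b ha hb
      rw [← mul_assoc, ha, mul_assoc, hb, mul_assoc]
    · intro g' y hy
      by_cases e : cj g L = cj g' L
      · exact hcj g' x (e ▸ hx) y hy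
      · exact (h.mn.conj h.normal g).pair (h.mn.conj h.normal g') e |>.2 x hx y hy
  have h2 : ∀ m ∈ M, ∀ m' ∈ M, m' * m = m * m' := by
    intro m hm
    refine h.M_ind (P := fun m' => m' * m = m * m') ?_ ?_ ?_
    · simp
    · intro a b ha hb
      rw [mul_assoc, hb, ← mul_assoc, ha, mul_assoc]
    · intro g x hx
      exact h1 g x hx m hm
  obtain ⟨a, ha, b, hb, hab⟩ := h.nab
  exact hab (h2 b hb a ha)

/-- Subgroups of `L` normalized by `L` are trivial or `L`. -/
theorem dich (h : Ctx Q M L z) {H : Subgroup G} (hle : H ≤ L) (hn : ∀ l ∈ L, ∀ x ∈ H, l * x * l⁻¹ ∈ H) :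
    H = ⊥ ∨ H = L := by
  by_cases hb : H = ⊥
  · exact Or.inl hb
  · right
    apply h.mn.min _ hb hle
    refine h.M_ind (P := fun m => ∀ x ∈ H, m * x * m⁻¹ ∈ H) ?_ ?_ ?_
    · intro x hx
      simpa using hx
    · intro a b ha hb x hx
      have := ha _ (hb x hx)
      have e : a * b * x * (a * b)⁻¹ = a * (b * x * b⁻¹) * a⁻¹ := by group
      rw [e]
      exact this
    · intro g y hy x hx
      by_cases e : cj g L = L
      · exact hn y (e ▸ hy) x hx
      · have := (h.pair g e).2 x (hle hx) y hy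
        have e2 : y * x * y⁻¹ = x := by
          rw [← this]
          group
        rw [e2]
        exact hx

/-- `L` is simple. -/
theorem simple (h : Ctx Q M L z) : IsSimpleGroup L := by
  obtain ⟨a, ha, b, hb, hab⟩ := h.nabL
  haveI : Nontrivial L := by
    refine ⟨⟨⟨a, ha⟩, 1, ?_⟩⟩
    intro e
    have : a = 1 := congrArg Subtype.val e
    apply hab
    rw [this]
    simp
  refine ⟨fun N hN => ?_⟩
  rcases h.dich (H := N.map L.subtype) (map_subtype_le _) (by
    rintro l hl _ ⟨x, hx, rfl⟩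
    exact ⟨⟨l, hl⟩ * x * ⟨l, hl⟩⁻¹, hN.conj_mem x hx _, rfl⟩) with e | e
  · left
    exact (map_eq_bot_iff_of_injective _ L.subtype_injective).mp e
  · right
    rw [eq_top_iff]
    rintro ⟨x, hx⟩ -
    rw [← e] at hx
    obtain ⟨y, hy, e2⟩ := hx
    have : y = ⟨x, by rw [← e2]; exact y.2⟩ := Subtype.ext e2
    rw [← this]
    exact hy

/-- The centre of `L` is trivial. -/
theorem center_trivial (h : Ctx Q M L z) {l : G} (hl : l ∈ L) (hc : ∀ x ∈ L, x * l = l * x) : l = 1 := by
  obtain ⟨a, ha, b, hb, hab⟩ := h.nabL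
  rcases h.dich (H := (center L).map L.subtype) (map_subtype_le _) (by
    rintro l hl _ ⟨x, hx, rfl⟩
    exact ⟨⟨l, hl⟩ * x * ⟨l, hl⟩⁻¹, (inferInstance : (center L).Normal).conj_mem x hx _, rfl⟩) with e | e
  · have : l ∈ (center L).map L.subtype := ⟨⟨l, hl⟩, mem_center_iff.mpr fun y => Subtype.ext (hc y y.2), rfl⟩
    rw [e] at this
    exact this
  · exfalso
    have hb' := hb
    rw [← e] at hb'
    obtain ⟨y, hy, e2⟩ := hb'
    apply hab
    have := mem_center_iff.mp hy ⟨a, ha⟩
    have h3 := congrArg Subtype.val this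
    rw [← e2]
    exact h3

/-- `L` is not a 2-group. -/
theorem not_four (h : Ctx Q M L z) : ¬ ∀ l ∈ L, l ^ 4 = 1 := by
  intro hall
  haveI : Fact (Nat.Prime 2) := ⟨Nat.prime_two⟩
  have hp : IsPGroup 2 L := by
    rintro ⟨x, hx⟩
    refine ⟨2, ?_⟩
    apply Subtype.ext
    simpa using hall x hx
  haveI := h.simple
  haveI : Nontrivial (center L) := hp.center_nontrivial
  obtain ⟨⟨a, ha⟩, ha1⟩ := exists_ne (1 : center L)
  apply ha1
  apply Subtype.ext
  apply Subtype.ext
  exact h.center_trivial a.2 fun x hx => congrArg Subtype.val (mem_center_iff.mp ha ⟨x, hx⟩)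

/-- **(f)** `z` centralizes no conjugate of `L`. -/
theorem not_centralize (h : Ctx Q M L z) : ¬ ∀ l ∈ L, l * z = z * l := by
  intro hall
  have hes := h.ls.es
  apply h.not_four
  have hnorm : ∀ l ∈ L, ∀ q ∈ Q, l * q * l⁻¹ ∈ Q := fun l hl => h.ls.norm l (hall l hl)
  have hLQ : ∀ x, x ∈ L → x ∈ Q → x = 1 := by
    rcases h.dich (H := L ⊓ Q) inf_le_left (fun l hl x hx =>
        ⟨L.mul_mem (L.mul_mem hl hx.1) (L.inv_mem hl), hnorm l hl x hx.2⟩) with e | e
    · intro x hx hx'
      have : x ∈ L ⊓ Q := ⟨hx, hx'⟩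
      rw [e] at this
      exact this
    · exfalso
      apply h.not_four
      intro l hl
      rw [← e] at hl
      exact es_four hes hl.2
  intro t ht
  by_cases hu : ∃ x ∈ Q, cj x L ≠ L
  · obtain ⟨x, hx, hne⟩ := hu
    obtain ⟨hi, hc⟩ := h.pair x hne
    refine four_elt hi hc ht (b := x * t⁻¹ * x⁻¹) (conj_mem_cj (L.inv_mem ht)) ?_
    apply es_four hes
    have e : t * (x * t⁻¹ * x⁻¹) = t * x * t⁻¹ * x⁻¹ := by group
    rw [e]
    exact Q.mul_mem (hnorm t ht x hx) (Q.inv_mem hx)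
  · push Not at hu
    have hq : ∀ q ∈ Q, q * t = t * q := by
      intro q hq
      have h1 : t * q * t⁻¹ * q⁻¹ ∈ Q := Q.mul_mem (hnorm t ht q hq) (Q.inv_mem hq)
      have h2 : t * q * t⁻¹ * q⁻¹ ∈ L := by
        have e : t * q * t⁻¹ * q⁻¹ = t * (q * t⁻¹ * q⁻¹) := by group
        rw [e]
        refine L.mul_mem ht ?_
        have := conj_mem_cj (g := q) (L.inv_mem ht)
        rwa [hu q hq] at this
      have h3 := hLQ _ h2 h1
      calc q * t = (t * q * t⁻¹ * q⁻¹)⁻¹ * (t * q) := by group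
        _ = t * q := by rw [h3]; simp
    rcases h.ls.cent t hq with e | e
    · rw [e]
      simp
    · rw [e]
      exact es_four hes hes.z_mem

/-- The centralizer of `M` is trivial. -/
theorem centralizer_trivial (h : Ctx Q M L z) {c : G} (hc : ∀ m ∈ M, c * m = m * c) : c = 1 := by
  by_contra hc1
  have hN : (centralizer (M : Set G)).Normal := by
    haveI := h.normal
    infer_instance
  have hcM : c ∈ centralizer (M : Set G) := by
    rw [mem_centralizer_iff]
    intro m hm
    exact (hc m hm).symm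
  have hzC : z ∈ centralizer (M : Set G) := by
    apply h.ls.z_mem
    · intro q _ k hk
      exact hN.conj_mem k hk q
    · intro e
      rw [e] at hcM
      exact hc1 hcM
  have hle := h.le_normal hN hzC
  obtain ⟨a, ha, b, hb, hab⟩ := h.nab
  exact hab (mem_centralizer_iff.mp (hle hb) a ha)


/-- `L` is a component. -/
theorem isComponent (h : Ctx Q M L z) : IsComponent L := by
  refine ⟨?_, ?_⟩
  · exact Subgroup.IsSubnormal.step L M h.mn.le h.normal.isSubnormal
      (normal_subgroupOf_of_conj h.mn.le h.mn.nrm)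
  · obtain ⟨a, ha, b, hb, hab⟩ := h.nabL
    haveI := h.simple
    have hperf : Group.IsPerfect L := by
      apply isPerfect_of_commutator_self
      rcases h.dich (H := ⁅L, L⁆) (Subgroup.commutator_le_self L) (by
          intro l hl x hx
          exact (mem_normalizer_iff.mp (le_normalizer_commutator_left L L hl) x).mp hx) with e | e
      · exfalso
        exact hab (commutes_of_commutator_eq_bot e a ha b hb)
      · exact e
    apply qs_of_forall_normal hperf
    intro N hN
    rcases IsSimpleGroup.eq_bot_or_eq_top_of_normal N hN with e | e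
    · right
      rw [e]
      exact bot_le
    · exact Or.inl e

/-- The Fitting subgroup is trivial. -/
theorem fitting_eq_bot (h : Ctx Q M L z) : fittingSubgroup G = ⊥ := by
  by_contra hne
  have hnt : Nontrivial (fittingSubgroup G) := (Subgroup.nontrivial_iff_ne_bot _).mpr hne
  haveI : Group.IsNilpotent (fittingSubgroup G) := fitting_isNilpotent
  have hc := Group.IsNilpotent.center_ne_bot (fittingSubgroup G)
  have hN : ((center (fittingSubgroup G)).map (fittingSubgroup G).subtype).Normal :=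
    map_center_normal inferInstance
  have hzC := h.ls.z_mem (H := (center (fittingSubgroup G)).map (fittingSubgroup G).subtype)
    (fun q _ k hk => hN.conj_mem k hk q) (by
      intro e
      exact hc ((map_eq_bot_iff_of_injective _ (Subgroup.subtype_injective _)).mp e))
  have hle := h.le_normal hN hzC
  obtain ⟨a, ha, b, hb, hab⟩ := h.nab
  obtain ⟨a', ha', e1⟩ := hle ha
  obtain ⟨b', hb', e2⟩ := hle hb
  apply hab
  rw [← e1, ← e2]
  have := mem_center_iff.mp ha' b'
  exact (congrArg Subtype.val this).symm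

/-- The layer is `M`. -/
theorem layer_eq (h : Ctx Q M L z) : layer G = M := by
  apply le_antisymm
  · refine layer_le fun K hK => ?_
    by_cases hex : ∃ g, K = cj g L
    · obtain ⟨g, rfl⟩ := hex
      exact (h.mn.conj h.normal g).le
    · exfalso
      push Not at hex
      have hK1 : ∀ k ∈ K, k = 1 := by
        intro k hk
        refine h.centralizer_trivial ?_
        refine h.M_ind (P := fun m => k * m = m * k) (by simp) ?_ ?_
        · intro a b ha hb
          rw [← mul_assoc, ha, mul_assoc, hb, mul_assoc]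
        · intro g x hx
          exact component_commutes hK (h.conj g).isComponent (hex g) k hk x hx
      have hs := hK.2.2
      have : Subsingleton K := by
        constructor
        rintro ⟨a, ha⟩ ⟨b, hb⟩
        apply Subtype.ext
        show a = b
        rw [hK1 a ha, hK1 b hb]
      have : Subsingleton (↥K ⧸ center ↥K) := inferInstance
      exact not_subsingleton (↥K ⧸ center ↥K) this
  · rw [← h.sup_eq]
    exact iSup_le fun g => component_le_layer (h.conj g).isComponent

/-- The generalized Fitting subgroup is `M`. -/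
theorem gfit_eq (h : Ctx Q M L z) : M = generalizedFittingSubgroup G := by
  unfold generalizedFittingSubgroup
  rw [h.layer_eq, h.fitting_eq_bot, sup_bot_eq]

/-- `z` normalizes `L`. -/
theorem cj_z (h : Ctx Q M L z) : cj z L = L :=
  cj_eq_of_normal (h.mn.nrm z h.z_mem)
    (fun l hl => by
      have := h.mn.nrm z⁻¹ (M.inv_mem h.z_mem) l hl
      simpa using this)

theorem cj_comm (h : Ctx Q M L z) {a b : G} (ha : a ∈ Q) (hb : b ∈ Q) : cj (a * b) L = cj (b * a) L := by
  rcases h.ls.es.comm a ha b hb with e | e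
  · have : a * b = b * a := by
      calc a * b = (a * b * a⁻¹ * b⁻¹) * (b * a) := by group
        _ = b * a := by rw [e, one_mul]
    rw [this]
  · have : a * b = z * (b * a) := by
      rw [← e]
      group
    rw [this, cj_mul]
    exact (h.conj (b * a)).cj_z

theorem cj_sq (h : Ctx Q M L z) {a : G} (ha : a ∈ Q) : cj (a * a) L = L := by
  rcases h.ls.es.sq a ha with e | e
  · rw [e, cj_one]
  · rw [e]
    exact h.cj_z

theorem cj_inj {a : G} {A B : Subgroup G} (e : cj a A = cj a B) : A = B := by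
  rw [← cj_inv_cj a A, e, cj_inv_cj]

/-- `Q` is transitive on the conjugates of `L`. -/
theorem orbit (h : Ctx Q M L z) (g : G) : ∃ x ∈ Q, cj g L = cj x L := by
  by_contra hcon
  push Not at hcon
  let D : Subgroup G := ⨆ x : Q, cj (x : G) L
  have hzD : z ∈ D := by
    apply h.ls.z_mem
    · intro q hq k hk
      have h1 : D.map (MulAut.conj q).toMonoidHom ≤ D := by
        show (⨆ x : Q, cj (x : G) L).map _ ≤ _
        rw [Subgroup.map_iSup]
        refine iSup_le fun x => ?_
        have : ((cj (x : G) L).map (MulAut.conj q).toMonoidHom) = cj (q * x) L := (cj_mul q x L).symm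
        rw [this]
        exact le_iSup (fun x : Q => cj (x : G) L) ⟨q * x, Q.mul_mem hq x.2⟩
      exact h1 ⟨k, hk, rfl⟩
    · intro e
      apply h.mn.ne
      have h2 := le_iSup (fun x : Q => cj (x : G) L) 1
      have h3 : (⨆ x : Q, cj (x : G) L) = ⊥ := e
      rw [h3] at h2
      simp only [OneMemClass.coe_one, cj_one] at h2
      exact le_bot_iff.mp h2
  apply (h.conj g).not_centralize
  intro l hl
  have hall : ∀ d ∈ D, l * d = d * l := by
    intro d hd
    refine Subgroup.iSup_induction (fun x : Q => cj (x : G) L) (C := fun d => l * d = d * l) hd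
      ?_ (by simp) ?_
    · intro x y hy
      exact ((h.mn.conj h.normal g).pair (h.mn.conj h.normal x) (hcon x x.2)).2 l hl y hy
    · intro a b ha hb
      rw [← mul_assoc, ha, mul_assoc, hb, mul_assoc]
  exact hall z hzD

/-- Elements of `C_L(z)` have order dividing 4 when `Q` moves `L`. -/
theorem four_of_comm (h : Ctx Q M L z) {u : G} (hu : u ∈ Q) (hne : cj u L ≠ L) {r : G} (hr : r ∈ L)
    (hrz : r * z = z * r) : r ^ 4 = 1 := by
  obtain ⟨hi, hc⟩ := h.pair u hne
  refine four_elt hi hc hr (b := u * r⁻¹ * u⁻¹) (conj_mem_cj (L.inv_mem hr)) ?_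
  apply es_four h.ls.es
  have e : r * (u * r⁻¹ * u⁻¹) = r * u * r⁻¹ * u⁻¹ := by group
  rw [e]
  exact Q.mul_mem (h.ls.norm r hrz u hu) (Q.inv_mem hu)

/-- `z` is not fixed point free on `L`. -/
theorem exists_fix (h : Ctx Q M L z) : ∃ r ∈ L, r ≠ 1 ∧ r * z = z * r := by
  by_contra hcon
  push Not at hcon
  have hinv := Cfsg.Agent.S5421.inverts_of_fpf L z h.ls.es.z_sq (h.mn.nrm z h.z_mem) (by
    intro k hk hkz
    by_contra hk1
    exact hcon k hk hk1 hkz)
  obtain ⟨a, ha, b, hb, hab⟩ := h.nabL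
  apply hab
  have h1 := hinv _ (L.mul_mem ha hb)
  have e : z * (a * b) * z⁻¹ = (z * a * z⁻¹) * (z * b * z⁻¹) := by group
  rw [e, hinv a ha, hinv b hb, mul_inv_rev] at h1
  have h2 := congrArg (fun t : G => t⁻¹) h1
  simp only [mul_inv_rev, inv_inv] at h2
  exact h2.symm


/-- The structural decomposition of `z` when there are at least four conjugates. -/
theorem exists_E (h : Ctx Q M L z) {u y : G} (hu : u ∈ Q) (hy : y ∈ Q) (hne : cj u L ≠ L)
    (hyL : cj y L ≠ L) (hyu : cj y L ≠ cj u L) {r : G} (hr : r ∈ L) (hr1 : r ≠ 1) (hrz : r * z = z * r) :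
    ∃ E : G, (∀ l ∈ L, l * E = E * l) ∧ z = r * E := by
  have hes := h.ls.es
  -- the conjugates
  have h30 : cj (y * u) L ≠ L := by
    intro e
    apply hyu
    rw [cj_mul] at e
    have h1 : cj y (cj y L) = L := by
      rw [← cj_mul]
      exact h.cj_sq hy
    have h2 : cj y (cj u L) = cj y (cj y L) := by rw [e, h1]
    exact (cj_inj h2).symm
  have h31 : cj (y * u) L ≠ cj u L := by
    intro e
    apply hyL
    rw [h.cj_comm hy hu, cj_mul] at e
    apply cj_inj (a := u)
    rw [e]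
  have h32 : cj (y * u) L ≠ cj y L := by
    intro e
    apply hne
    rw [cj_mul] at e
    exact cj_inj e
  let a : G := u * r⁻¹ * u⁻¹
  have ha : a ∈ cj u L := conj_mem_cj (L.inv_mem hr)
  have hb : y * r⁻¹ * y⁻¹ ∈ cj y L := conj_mem_cj (L.inv_mem hr)
  have hd : y * a⁻¹ * y⁻¹ ∈ cj (y * u) L := by
    rw [cj_mul]
    exact conj_mem_cj (inv_mem ha)
  let E : G := a * (y * a⁻¹ * y⁻¹) * (y * r⁻¹ * y⁻¹)
  have hE : ∀ l ∈ L, l * E = E * l := by
    intro l hl
    have h1 := (h.pair u hne).2 l hl a ha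
    have h2 := (h.pair (y * u) h30).2 l hl _ hd
    have h3 := (h.pair y hyL).2 l hl _ hb
    show l * (a * (y * a⁻¹ * y⁻¹) * (y * r⁻¹ * y⁻¹)) = a * (y * a⁻¹ * y⁻¹) * (y * r⁻¹ * y⁻¹) * l
    calc l * (a * (y * a⁻¹ * y⁻¹) * (y * r⁻¹ * y⁻¹))
        = (l * a) * (y * a⁻¹ * y⁻¹) * (y * r⁻¹ * y⁻¹) := by group
      _ = a * (l * (y * a⁻¹ * y⁻¹)) * (y * r⁻¹ * y⁻¹) := by rw [h1]; group
      _ = a * (y * a⁻¹ * y⁻¹) * (l * (y * r⁻¹ * y⁻¹)) := by rw [h2]; group
      _ = a * (y * a⁻¹ * y⁻¹) * (y * r⁻¹ * y⁻¹) * l := by rw [h3]; group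
  refine ⟨E, hE, ?_⟩
  -- the commutator
  let w : G := r * a
  have hwQ : w ∈ Q := by
    have e : r * a = r * u * r⁻¹ * u⁻¹ := by
      show r * (u * r⁻¹ * u⁻¹) = _
      group
    show r * a ∈ Q
    rw [e]
    exact Q.mul_mem (h.ls.norm r hrz u hu) (Q.inv_mem hu)
  have hcomm : ∀ s, s ∈ L → ∀ t, t ∈ cj u L → s * t = t * s := fun s hs t ht =>
    (h.pair u hne).2 s hs t ht
  have hw : w * y * w⁻¹ * y⁻¹ = r * E := by
    show r * a * y * (r * a)⁻¹ * y⁻¹ = r * (a * (y * a⁻¹ * y⁻¹) * (y * r⁻¹ * y⁻¹))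
    group
  rcases hes.comm w hwQ y hy with e | e
  · exfalso
    rw [hw] at e
    apply hr1
    apply h.center_trivial hr
    intro x hx
    have hrE : r = E⁻¹ := eq_inv_of_mul_eq_one_left e
    rw [hrE]
    have := hE x hx
    calc x * E⁻¹ = E⁻¹ * (E * x) * E⁻¹ := by group
      _ = E⁻¹ * (x * E) * E⁻¹ := by rw [this]
      _ = E⁻¹ * x := by group
  · rw [← hw, e]

/-- There are at most two conjugates. -/
theorem two_conj (h : Ctx Q M L z) {u y : G} (hu : u ∈ Q) (hy : y ∈ Q) (hne : cj u L ≠ L)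
    (hyL : cj y L ≠ L) (hyu : cj y L ≠ cj u L) : False := by
  have hes := h.ls.es
  obtain ⟨r, hr, hr1, hrz⟩ := h.exists_fix
  obtain ⟨E, hE, hzE⟩ := h.exists_E hu hy hne hyL hyu hr hr1 hrz
  have huniq : ∀ s ∈ L, s * z = z * s → s = 1 ∨ s = r := by
    intro s hs hsz
    by_cases hs1 : s = 1
    · exact Or.inl hs1
    · right
      obtain ⟨E', hE', hzE'⟩ := h.exists_E hu hy hne hyL hyu hs hs1 hsz
      have h1 : r⁻¹ * s = 1 := by
        apply h.center_trivial (L.mul_mem (L.inv_mem hr) hs)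
        intro x hx
        -- both act on `L` as `z`
        have h2 : z * x = r * x * E := by
          rw [hzE]
          calc r * E * x = r * (E * x) := by group
            _ = r * (x * E) := by rw [hE x hx]
            _ = r * x * E := by group
        have h3 : z * x = s * x * E' := by
          rw [hzE']
          calc s * E' * x = s * (E' * x) := by group
            _ = s * (x * E') := by rw [hE' x hx]
            _ = s * x * E' := by group
        have h4 : E * x = x * E := (hE x hx).symm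
        have h5 : r⁻¹ * s * E' = E := by
          have : r * E = s * E' := by rw [← hzE, ← hzE']
          calc r⁻¹ * s * E' = r⁻¹ * (s * E') := by group
            _ = r⁻¹ * (r * E) := by rw [this]
            _ = E := by group
        have h6 : r⁻¹ * (s * x * E') = x * E := by
          rw [← h3, h2]
          group
        -- from `r⁻¹ s x E' = x E = x r⁻¹ s E'`
        have h7 : r⁻¹ * s * x * E' = x * (r⁻¹ * s) * E' := by
          calc r⁻¹ * s * x * E' = r⁻¹ * (s * x * E') := by group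
            _ = x * E := h6
            _ = x * (r⁻¹ * s * E') := by rw [h5]
            _ = x * (r⁻¹ * s) * E' := by group
        exact (mul_right_cancel h7).symm
      have h2 : s = r := by
        rw [inv_mul_eq_one] at h1
        exact h1.symm
      exact h2
  have hrr : r * r = 1 := by
    have hrrz : r * r * z = z * (r * r) := by
      rw [mul_assoc, hrz, ← mul_assoc, hrz, mul_assoc]
    rcases huniq _ (L.mul_mem hr hr) hrrz with e | e
    · exact e
    · exfalso
      apply hr1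
      have : r * r = r * 1 := by rw [e, mul_one]
      exact mul_left_cancel this
  haveI := h.simple
  obtain ⟨a, ha, b, hb, hab⟩ := h.nabL
  refine no_small_centralizer (X := L) ⟨⟨a, ha⟩, ⟨b, hb⟩, ?_⟩ ⟨r, hr⟩ ?_ ?_ ?_
  · intro e
    exact hab (congrArg Subtype.val e)
  · intro e
    exact hr1 (congrArg Subtype.val e)
  · exact Subtype.ext hrr
  · rintro ⟨l, hl⟩ hlr
    have hlr' : l * r = r * l := congrArg Subtype.val hlr
    have hlz : l * z = z * l := by
      rw [hzE]
      calc l * (r * E) = (l * r) * E := by group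
        _ = r * (l * E) := by rw [hlr']; group
        _ = r * (E * l) := by rw [hE l hl]
        _ = r * E * l := by group
    rcases huniq l hl hlz with e | e
    · left
      exact Subtype.ext e
    · right
      exact Subtype.ext e


/-- The Sylow property of the centralizer of `a` in `L`. -/
theorem sylow_part (h : Ctx Q M L z) {u a : G} (hu : u ∈ Q) (hne : cj u L ≠ L)
    (hiff : ∀ l ∈ L, l * a = a * l ↔ l * z = z * l) :
    ∃ R : Sylow 2 ↥L, (R : Subgroup ↥L) = (centralizer ({a} : Set G)).subgroupOf L := by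
  classical
  haveI : Fact (Nat.Prime 2) := ⟨Nat.prime_two⟩
  have hes := h.ls.es
  have hp : IsPGroup 2 ((centralizer ({a} : Set G)).subgroupOf L) := by
    rintro ⟨⟨r, hrL⟩, hr⟩
    refine ⟨2, ?_⟩
    apply Subtype.ext
    apply Subtype.ext
    have h1 : r * a = a * r := mem_centralizer_singleton_iff.mp (Subgroup.mem_subgroupOf.mp hr)
    exact h.four_of_comm hu hne hrL ((hiff r hrL).mp h1)
  obtain ⟨R, hR⟩ := hp.exists_le_sylow
  refine ⟨R, ?_⟩
  symm
  apply Subgroup.eq_of_le_of_card_ge hR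
  -- Sylow 2-subgroup of `G` containing `Q`
  have hQ2 : IsPGroup 2 Q := by
    rintro ⟨x, hx⟩
    refine ⟨2, ?_⟩
    apply Subtype.ext
    simpa using es_four hes hx
  obtain ⟨S₀, hS₀⟩ := hQ2.exists_le_sylow
  have hS₀z := h.ls.pgroup_le S₀.isPGroup' hS₀
  have hP2 : IsPGroup 2 ((R : Subgroup ↥L).map L.subtype) := R.isPGroup'.map _
  obtain ⟨S, hS⟩ := hP2.exists_le_sylow
  obtain ⟨g, hg⟩ := MulAction.exists_smul_eq G S₀ S
  have hmem : ∀ p ∈ (R : Subgroup ↥L), g⁻¹ * (p : G) * g ∈ (S₀ : Subgroup G) := by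
    intro p hp
    have h1 : (p : G) ∈ (S : Subgroup G) := hS ⟨p, hp, rfl⟩
    rw [← hg, Sylow.coe_subgroup_smul] at h1
    obtain ⟨s, hs, e⟩ := h1
    have e' : g * s * g⁻¹ = (p : G) := e
    rw [← e']
    have e2 : g⁻¹ * (g * s * g⁻¹) * g = s := by group
    rw [e2]
    exact hs
  obtain ⟨x, hx, hxe⟩ := h.orbit g⁻¹
  have hmemL : ∀ p ∈ (R : Subgroup ↥L), x⁻¹ * g⁻¹ * (p : G) * g * x ∈ L := by
    intro p _
    have h1 : g⁻¹ * (p : G) * g⁻¹⁻¹ ∈ cj g⁻¹ L := conj_mem_cj p.2
    rw [hxe, mem_cj] at h1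
    have e : x⁻¹ * (g⁻¹ * (p : G) * g⁻¹⁻¹) * x = x⁻¹ * g⁻¹ * (p : G) * g * x := by group
    rw [e] at h1
    exact h1
  have hmemC : ∀ p ∈ (R : Subgroup ↥L), (x⁻¹ * g⁻¹ * (p : G) * g * x) * a = a * (x⁻¹ * g⁻¹ * (p : G) * g * x) := by
    intro p hp
    rw [hiff _ (hmemL p hp)]
    have h1 : (g⁻¹ * (p : G) * g) * z = z * (g⁻¹ * (p : G) * g) :=
      mem_centralizer_singleton_iff.mp (hS₀z (hmem p hp))
    have h2 : x * z = z * x := hes.z_central x hx
    have h2' : x⁻¹ * z = z * x⁻¹ := by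
      calc x⁻¹ * z = x⁻¹ * (z * x) * x⁻¹ := by group
        _ = x⁻¹ * (x * z) * x⁻¹ := by rw [h2]
        _ = z * x⁻¹ := by group
    have e : x⁻¹ * g⁻¹ * (p : G) * g * x = x⁻¹ * (g⁻¹ * (p : G) * g) * x := by group
    rw [e]
    calc x⁻¹ * (g⁻¹ * (p : G) * g) * x * z = x⁻¹ * (g⁻¹ * (p : G) * g) * (x * z) := by group
      _ = x⁻¹ * ((g⁻¹ * (p : G) * g) * z) * x := by rw [h2]; group
      _ = (x⁻¹ * z) * (g⁻¹ * (p : G) * g) * x := by rw [h1]; group
      _ = z * (x⁻¹ * (g⁻¹ * (p : G) * g) * x) := by rw [h2']; group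
  let f : ↥(R : Subgroup ↥L) → (centralizer ({a} : Set G)).subgroupOf L := fun p =>
    ⟨⟨x⁻¹ * g⁻¹ * ((p : L) : G) * g * x, hmemL p p.2⟩, by
      rw [Subgroup.mem_subgroupOf]
      exact mem_centralizer_singleton_iff.mpr (hmemC p p.2)⟩
  have hf : Function.Injective f := by
    intro p p' e
    have e1 : x⁻¹ * g⁻¹ * ((p : L) : G) * g * x = x⁻¹ * g⁻¹ * ((p' : L) : G) * g * x :=
      congrArg (fun t : (centralizer ({a} : Set G)).subgroupOf L => ((t : L) : G)) e
    have e2 : ((p : L) : G) = ((p' : L) : G) := by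
      have := mul_right_cancel (mul_right_cancel e1)
      exact mul_left_cancel this
    exact Subtype.ext (Subtype.ext e2)
  exact Nat.card_le_card_of_injective f hf

open scoped commutatorElement in
/-- The Frattini subgroup lemma. -/
theorem frattini_map_le {L : Subgroup G} (R : Subgroup ↥L) {a : G}
    (h1 : ∀ x ∈ R, ∀ y ∈ R, (x : G) * y * (x : G)⁻¹ * (y : G)⁻¹ = 1 ∨ (x : G) * y * (x : G)⁻¹ * (y : G)⁻¹ = a)
    (h2 : ∀ x ∈ R, (x : G) * x = 1 ∨ (x : G) * x = a) :
    (frattini ↥R).map ((L.subtype).comp R.subtype) ≤ zpowers a := by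
  rw [Subgroup.map_le_iff_le_comap]
  apply Cfsg.Agent.Lib.Basic.frattini_le_of_commutator_le_of_pow_mem Nat.prime_two
  · show ⁅(⊤ : Subgroup ↥R), ⊤⁆ ≤ _
    rw [Subgroup.commutator_le]
    rintro ⟨x, hx⟩ - ⟨y, hy⟩ -
    rw [Subgroup.mem_comap]
    have e : ((L.subtype).comp R.subtype) ⁅(⟨x, hx⟩ : ↥R), ⟨y, hy⟩⁆ = (x : G) * y * (x : G)⁻¹ * (y : G)⁻¹ := by
      rw [map_commutatorElement, commutatorElement_def]
      rfl
    rw [e]
    rcases h1 x hx y hy with e1 | e1 <;> rw [e1]
    · exact one_mem _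
    · exact mem_zpowers a
  · rintro ⟨x, hx⟩
    rw [Subgroup.mem_comap]
    have e : ((L.subtype).comp R.subtype) ((⟨x, hx⟩ : ↥R) ^ 2) = (x : G) * x := by
      rw [map_pow, pow_two]
      rfl
    rw [e]
    rcases h2 x hx with e1 | e1 <;> rw [e1]
    · exact one_mem _
    · exact mem_zpowers a

open scoped commutatorElement in
/-- The package in the two-conjugates case. -/
theorem two_case (h : Ctx Q M L z) {u : G} (hu : u ∈ Q) (hne : cj u L ≠ L) :
    L ⊓ cj u L = ⊥ ∧ (∀ x ∈ L, ∀ y ∈ cj u L, x * y = y * x) ∧ L ⊔ cj u L = M ∧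
    ∃ a ∈ L, z = a * (u * a * u⁻¹) ∧
      (∃ R : Sylow 2 ↥L, (R : Subgroup ↥L) = (centralizer ({a} : Set G)).subgroupOf L ∧
        (frattini ↥(R : Subgroup ↥L)).map ((L.subtype).comp (R : Subgroup ↥L).subtype) ≤ zpowers a) ∧
      Q ≠ (pCore 2 ↥(centralizer ({z} : Set G))).map (centralizer ({z} : Set G)).subtype := by
  classical
  have hes := h.ls.es
  obtain ⟨hi, hc⟩ := h.pair u hne
  have hall : ∀ g, cj g L = L ∨ cj g L = cj u L := by
    intro g
    obtain ⟨x, hx, e⟩ := h.orbit g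
    by_contra hcon
    push Not at hcon
    exact h.two_conj hu hx hne (e ▸ hcon.1) (e ▸ hcon.2)
  have hsup : L ⊔ cj u L = M := by
    apply le_antisymm (sup_le h.mn.le (h.mn.conj h.normal u).le)
    intro m hm
    refine h.M_ind (P := fun m => m ∈ L ⊔ cj u L) (one_mem _) (fun a b => mul_mem) ?_ m hm
    intro g x hx
    rcases hall g with e | e
    · exact mem_sup_left (e ▸ hx)
    · exact mem_sup_right (e ▸ hx)
  have huu : cj u (cj u L) = L := by
    rw [← cj_mul]
    exact h.cj_sq hu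
  have hzM := h.z_mem
  rw [← hsup] at hzM
  obtain ⟨a, ha, b, hb, hzab⟩ := exists_mul_of_mem_sup_of_commutes hc hzM
  have hub : u * b * u⁻¹ ∈ L := by
    have := conj_mem_cj (g := u) hb
    rwa [huu] at this
  have hua : u * a * u⁻¹ ∈ cj u L := conj_mem_cj ha
  have hz2 : a * b = (u * b * u⁻¹) * (u * a * u⁻¹) := by
    have h1 : u * z * u⁻¹ = z := by
      rw [hes.z_central u hu]
      group
    have h2 : (u * a * u⁻¹) * (u * b * u⁻¹) = u * (a * b) * u⁻¹ := by group
    have h3 := hc _ hub _ hua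
    rw [h3, h2, ← hzab, h1, hzab]
  obtain ⟨e1, e2⟩ := decomp_unique hi ha hub hb hua hz2
  have hzform : z = a * (u * a * u⁻¹) := by
    rw [← e2]
    exact hzab
  have haa : a * a = 1 := by
    have h1 : (a * a) * (b * b) = 1 := by
      have h2 : (a * b) * (a * b) = 1 := by
        rw [← hzab]
        exact hes.z_sq
      calc (a * a) * (b * b) = a * (a * b) * b := by group
        _ = a * (b * a) * b := by rw [hc a ha b hb]
        _ = (a * b) * (a * b) := by group
        _ = 1 := h2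
    have h3 : a * a = (b * b)⁻¹ := eq_inv_of_mul_eq_one_left h1
    exact hi _ (L.mul_mem ha ha) (h3 ▸ (cj u L).inv_mem ((cj u L).mul_mem hb hb))
  have ha1 : a ≠ 1 := by
    intro e
    apply hes.z_ne
    rw [hzform, e]
    group
  have hiff : ∀ l ∈ L, l * a = a * l ↔ l * z = z * l := by
    intro l hl
    have hlb := hc l hl b hb
    rw [hzab]
    constructor
    · intro e
      calc l * (a * b) = (l * a) * b := by group
        _ = a * (l * b) := by rw [e]; group
        _ = a * (b * l) := by rw [hlb]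
        _ = a * b * l := by group
    · intro e
      apply mul_right_cancel (b := b)
      calc l * a * b = l * (a * b) := by group
        _ = a * b * l := e
        _ = a * (b * l) := by group
        _ = a * (l * b) := by rw [hlb]
        _ = a * l * b := by group
  have hwQ : ∀ r ∈ L, r * a = a * r → r * (u * r⁻¹ * u⁻¹) ∈ Q := by
    intro r hr hra
    have e : r * (u * r⁻¹ * u⁻¹) = r * u * r⁻¹ * u⁻¹ := by group
    rw [e]
    exact Q.mul_mem (h.ls.norm r ((hiff r hr).mp hra) u hu) (Q.inv_mem hu)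
  have hconj : ∀ r ∈ L, u * r⁻¹ * u⁻¹ ∈ cj u L := fun r hr => conj_mem_cj (L.inv_mem hr)
  have hF1 : ∀ r ∈ L, r * a = a * r → r * r = 1 ∨ r * r = a := by
    intro r hr hra
    have hrr' := hc r hr _ (hconj r hr)
    have e : (r * (u * r⁻¹ * u⁻¹)) * (r * (u * r⁻¹ * u⁻¹))
        = (r * r) * ((u * r⁻¹ * u⁻¹) * (u * r⁻¹ * u⁻¹)) := by
      calc (r * (u * r⁻¹ * u⁻¹)) * (r * (u * r⁻¹ * u⁻¹))
          = r * ((u * r⁻¹ * u⁻¹) * r) * (u * r⁻¹ * u⁻¹) := by group
        _ = r * (r * (u * r⁻¹ * u⁻¹)) * (u * r⁻¹ * u⁻¹) := by rw [hrr']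
        _ = _ := by group
    have hmem : (u * r⁻¹ * u⁻¹) * (u * r⁻¹ * u⁻¹) ∈ cj u L :=
      (cj u L).mul_mem (hconj r hr) (hconj r hr)
    rcases hes.sq _ (hwQ r hr hra) with e3 | e3
    · left
      rw [e] at e3
      have := decomp_unique hi (L.mul_mem hr hr) L.one_mem hmem (cj u L).one_mem
        (e3.trans (mul_one 1).symm)
      exact this.1
    · right
      rw [e, hzform] at e3
      exact (decomp_unique hi (L.mul_mem hr hr) ha hmem hua e3).1
  have hF2 : ∀ r ∈ L, r * a = a * r → ∀ s ∈ L, s * a = a * s →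
      r * s * r⁻¹ * s⁻¹ = 1 ∨ r * s * r⁻¹ * s⁻¹ = a := by
    intro r hr hra s hs hsa
    have e0 : ⁅r * (u * r⁻¹ * u⁻¹), s * (u * s⁻¹ * u⁻¹)⁆ = ⁅r, s⁆ * ⁅u * r⁻¹ * u⁻¹, u * s⁻¹ * u⁻¹⁆ :=
      commutatorElement_mul_of_commutes hc hr hs (hconj r hr) (hconj s hs)
    have hmem : ⁅u * r⁻¹ * u⁻¹, u * s⁻¹ * u⁻¹⁆ ∈ cj u L := by
      rw [commutatorElement_def]
      exact (cj u L).mul_mem ((cj u L).mul_mem ((cj u L).mul_mem (hconj r hr) (hconj s hs))
        ((cj u L).inv_mem (hconj r hr))) ((cj u L).inv_mem (hconj s hs))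
    have hmem2 : r * s * r⁻¹ * s⁻¹ ∈ L :=
      L.mul_mem (L.mul_mem (L.mul_mem hr hs) (L.inv_mem hr)) (L.inv_mem hs)
    have e1 : ⁅r, s⁆ = r * s * r⁻¹ * s⁻¹ := commutatorElement_def r s
    rw [e1] at e0
    rcases hes.comm _ (hwQ r hr hra) _ (hwQ s hs hsa) with e3 | e3
    · left
      rw [← commutatorElement_def, e0] at e3
      exact (decomp_unique hi hmem2 L.one_mem hmem (cj u L).one_mem (e3.trans (mul_one 1).symm)).1
    · right
      rw [← commutatorElement_def, e0, hzform] at e3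
      exact (decomp_unique hi hmem2 ha hmem hua e3).1
  refine ⟨?_, hc, hsup, a, ha, hzform, ?_, ?_⟩
  · rw [eq_bot_iff]
    intro x hx
    exact hi x hx.1 hx.2
  · obtain ⟨R, hR⟩ := h.sylow_part hu hne hiff
    refine ⟨R, hR, ?_⟩
    have hmR : ∀ x ∈ (R : Subgroup ↥L), (x : G) * a = a * x := by
      intro x hx
      rw [hR, Subgroup.mem_subgroupOf] at hx
      exact mem_centralizer_singleton_iff.mp hx
    apply frattini_map_le
    · intro x hx y hy
      exact hF2 x x.2 (hmR x hx) y y.2 (hmR y hy)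
    · intro x hx
      exact hF1 x x.2 (hmR x hx)
  · intro hQO
    -- all of `C_L(z)` lies in `Q`
    set C := centralizer ({z} : Set G) with hC
    have hu' : cj u (cj u L) ≠ cj u L := by
      rw [huu]
      exact hne.symm
    let Y₀ : Subgroup G := (L ⊓ C) ⊔ (cj u L ⊓ C)
    have hAB : ∀ x ∈ L ⊓ C, ∀ y ∈ cj u L ⊓ C, x * y = y * x := fun x hx y hy => hc x hx.1 y hy.1
    have hYC : Y₀ ≤ C := sup_le inf_le_right inf_le_right
    have hfour : ∀ y ∈ Y₀, y ^ 4 = 1 := by
      intro y hy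
      obtain ⟨p, hp, q, hq, rfl⟩ := exists_mul_of_mem_sup_of_commutes hAB hy
      have hcm : Commute p q := hAB p hp q hq
      rw [hcm.mul_pow]
      have h1 := h.four_of_comm hu hne hp.1 (mem_centralizer_singleton_iff.mp hp.2)
      have h2 := (h.conj u).four_of_comm hu hu' hq.1 (mem_centralizer_singleton_iff.mp hq.2)
      rw [h1, h2, one_mul]
    have hYn : (Y₀.subgroupOf C).Normal := by
      apply normal_subgroupOf_of_conj hYC
      intro c hc' y hy
      have hle : cj c Y₀ ≤ Y₀ := by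
        have hT : ∀ T : Subgroup G, (T = L ∨ T = cj u L) → cj c (T ⊓ C) ≤ Y₀ := by
          intro T hT
          rintro _ ⟨t, ht, rfl⟩
          have ht2 : (MulAut.conj c).toMonoidHom t = c * t * c⁻¹ := rfl
          rw [ht2]
          have h1 : c * t * c⁻¹ ∈ C := C.mul_mem (C.mul_mem hc' ht.2) (C.inv_mem hc')
          have hcT : cj c T = L ∨ cj c T = cj u L := by
            rcases hT with rfl | rfl
            · exact hall c
            · rw [← cj_mul]
              exact hall _
          have h2 : c * t * c⁻¹ ∈ cj c T := conj_mem_cj ht.1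
          rcases hcT with e | e
          · rw [e] at h2
            exact mem_sup_left ⟨h2, h1⟩
          · rw [e] at h2
            exact mem_sup_right ⟨h2, h1⟩
        show Y₀.map _ ≤ Y₀
        show ((L ⊓ C) ⊔ (cj u L ⊓ C)).map _ ≤ _
        rw [Subgroup.map_sup]
        exact sup_le (hT L (Or.inl rfl)) (hT _ (Or.inr rfl))
      exact hle ⟨y, hy, rfl⟩
    have hYp : IsPGroup 2 (Y₀.subgroupOf C) := by
      rintro ⟨⟨y, hyC⟩, hy⟩
      refine ⟨2, ?_⟩
      apply Subtype.ext
      apply Subtype.ext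
      exact hfour y (Subgroup.mem_subgroupOf.mp hy)
    haveI : Fact (Nat.Prime 2) := ⟨Nat.prime_two⟩
    have hYO := le_pCore hYn hYp
    have hinQ : ∀ r ∈ L, r * z = z * r → r ∈ Q := by
      intro r hr hrz
      rw [hQO]
      have hrC : r ∈ C := mem_centralizer_singleton_iff.mpr hrz
      refine ⟨⟨r, hrC⟩, hYO (Subgroup.mem_subgroupOf.mpr (mem_sup_left ⟨hr, hrC⟩)), rfl⟩
    have hsmall : ∀ r ∈ L, r * a = a * r → r = 1 ∨ r = a := by
      intro r hr hra
      have hrz := (hiff r hr).mp hra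
      have hrQ := hinQ r hr hrz
      have hmemr := hconj r hr
      have e : r * u * r⁻¹ * u⁻¹ = r * (u * r⁻¹ * u⁻¹) := by group
      rcases hes.comm r hrQ u hu with e3 | e3
      · left
        rw [e] at e3
        exact (decomp_unique hi hr L.one_mem hmemr (cj u L).one_mem (e3.trans (mul_one 1).symm)).1
      · right
        rw [e, hzform] at e3
        exact (decomp_unique hi hr ha hmemr hua e3).1
    haveI := h.simple
    obtain ⟨p, hp, q, hq, hpq⟩ := h.nabL
    refine no_small_centralizer (X := L) ⟨⟨p, hp⟩, ⟨q, hq⟩, ?_⟩ ⟨a, ha⟩ ?_ ?_ ?_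
    · intro e
      exact hpq (congrArg Subtype.val e)
    · intro e
      exact ha1 (congrArg Subtype.val e)
    · exact Subtype.ext haa
    · rintro ⟨l, hl⟩ hla
      rcases hsmall l hl (congrArg Subtype.val hla) with e | e
      · left
        exact Subtype.ext e
      · right
        exact Subtype.ext e

/-- The case where `Q` normalizes `L`. -/
theorem eq_of_stable (h : Ctx Q M L z) (hu : ∀ x ∈ Q, cj x L = L) : L = M := by
  have hzL : z ∈ L := h.ls.z_mem (fun q hq k hk => hu q hq ▸ conj_mem_cj hk) h.mn.ne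
  have hall : ∀ g, cj g L = L := by
    intro g
    by_contra hne
    apply (h.conj g).not_centralize
    intro l hl
    exact ((h.pair g hne).2 z hzL l hl).symm
  have hn : L.Normal := ⟨fun n hn g => by
    have := conj_mem_cj (g := g) hn
    rwa [hall g] at this⟩
  exact le_antisymm h.mn.le (h.le_normal hn hzL)

end Ctx

theorem comm_iff {T : Subgroup G} : IsMulCommutative ↥T ↔ ∀ a ∈ T, ∀ b ∈ T, a * b = b * a := by
  constructor
  · intro hc a ha b hb
    have := hc.is_comm.comm ⟨a, ha⟩ ⟨b, hb⟩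
    exact congrArg Subtype.val this
  · intro hc
    exact ⟨⟨fun a b => Subtype.ext (hc a a.2 b b.2)⟩⟩

/-- The abelian case. -/
theorem abelian_case {Q M : Subgroup G} {z : G} (h : LS Q z) (hM : M = normalClosure ({z} : Set G))
    (hab : ∀ a ∈ M, ∀ b ∈ M, a * b = b * a) : generalizedFittingSubgroup G = pCore 2 G := by
  haveI : Fact (Nat.Prime 2) := ⟨Nat.prime_two⟩
  have hes := h.es
  have hO : pPrimeCore 2 G = ⊥ := by
    apply h.odd
    · have h1 := coprime_card_pPrimeCore (G := G) 2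
      exact (Nat.coprime_two_right).mp h1
    · intro q _ k hk
      exact (inferInstance : (pPrimeCore 2 G).Normal).conj_mem k hk q
  have hNM : M.Normal := hM ▸ normalClosure_normal
  have hzM : z ∈ M := by
    rw [hM]
    exact subset_normalClosure rfl
  have hE : layer G = ⊥ := by
    have hsol : Group.IsSolvable M := Group.isSolvable_of_comm fun a b => Subtype.ext (hab a a.2 b b.2)
    have hEC := layer_le_centralizer_of_solvable hNM hsol
    have hEz : ∀ e ∈ layer G, e * z = z * e := fun e he =>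
      (mem_centralizer_iff.mp (hEC he) z hzM).symm
    have hEn : (layer G).Normal := inferInstance
    have hInf : ((layer G ⊓ Q).subgroupOf (layer G)).Normal := by
      apply normal_subgroupOf_of_conj inf_le_left
      intro e he x hx
      exact ⟨hEn.conj_mem x hx.1 e, h.norm e (hEz e he) x hx.2⟩
    have hsn : (layer G ⊓ Q).IsSubnormal :=
      Subgroup.IsSubnormal.step _ (layer G) inf_le_left hEn.isSubnormal hInf
    have hnil : Group.IsNilpotent ↥(layer G ⊓ Q) := by
      have hp : IsPGroup 2 ↥(layer G ⊓ Q) := by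
        rintro ⟨x, hx⟩
        refine ⟨2, ?_⟩
        apply Subtype.ext
        simpa using es_four hes hx.2
      exact hp.isNilpotent
    have hF := subnormal_le_fitting hsn hnil
    have hcent : ∀ q ∈ Q, ∀ l ∈ layer G, q * l * q⁻¹ = l := by
      intro q hq
      apply le_centralizer_of_central_action layer_commutator
      intro l hl
      have hlq : l⁻¹ * q * l ∈ Q := by
        have := h.norm l⁻¹ (by
          have h1 := hEz l hl
          calc l⁻¹ * z = l⁻¹ * (z * l) * l⁻¹ := by group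
            _ = l⁻¹ * (l * z) * l⁻¹ := by rw [h1]
            _ = z * l⁻¹ := by group) q hq
        simpa using this
      refine ⟨l⁻¹ * (q * l * q⁻¹), ?_, by group⟩
      have hmemI : l⁻¹ * (q * l * q⁻¹) ∈ layer G ⊓ Q := by
        refine ⟨(layer G).mul_mem ((layer G).inv_mem hl) (hEn.conj_mem l hl q), ?_⟩
        have e : l⁻¹ * (q * l * q⁻¹) = (l⁻¹ * q * l) * q⁻¹ := by group
        rw [e]
        exact Q.mul_mem hlq (Q.inv_mem hq)
      refine ⟨hmemI.1, ?_⟩
      have h1 : l⁻¹ * (q * l * q⁻¹) ∈ (center (layer G)).map (layer G).subtype := by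
        rw [center_layer_eq_inf]
        exact ⟨hF hmemI, hmemI.1⟩
      obtain ⟨w, hw, e⟩ := h1
      show l⁻¹ * (q * l * q⁻¹) ∈ centralizer ((layer G : Subgroup G) : Set G)
      rw [mem_centralizer_iff]
      intro y hy
      have := mem_center_iff.mp hw ⟨y, hy⟩
      rw [← e]
      exact congrArg Subtype.val this
    have hE2 : ∀ l ∈ layer G, l = 1 ∨ l = z := by
      intro l hl
      apply h.cent
      intro q hq
      have := hcent q hq l hl
      calc q * l = (q * l * q⁻¹) * q := by group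
        _ = l * q := by rw [this]
    have hcomm : ∀ a ∈ layer G, ∀ b ∈ layer G, a * b = b * a := by
      intro a ha b hb
      rcases hE2 a ha with e | e <;> rcases hE2 b hb with e2 | e2 <;> simp [e, e2]
    rw [← layer_commutator]
    exact commutator_eq_bot_of_commutes hcomm
  rw [gfit_eq_fitting_of_layer_eq_bot hE]
  exact fitting_eq_pCore hO

/-- **S5426**. -/
theorem main_structure (Q : Subgroup G) (hQ : IsLargeExtraspecial Q) (z : G)
    (hz : ((center ↥Q).map Q.subtype) = zpowers z) (M : Subgroup G)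
    (hM : M = normalClosure ({z} : Set G)) :
    (IsMulCommutative ↥M ∧ generalizedFittingSubgroup G = pCore 2 G) ∨
    (M = generalizedFittingSubgroup G ∧ IsSimpleGroup ↥M ∧ ¬ IsMulCommutative ↥M) ∨
    (M = generalizedFittingSubgroup G ∧ ∃ (L : Subgroup G) (u : G), u ∈ Q ∧ IsSimpleGroup ↥L ∧
      ¬ IsMulCommutative ↥L ∧ L ⊓ cj u L = ⊥ ∧ (∀ x ∈ L, ∀ y ∈ cj u L, x * y = y * x) ∧
      L ⊔ cj u L = M ∧ ∃ z₁ ∈ L, z = z₁ * (u * z₁ * u⁻¹) ∧
      (∃ R : Sylow 2 ↥L, (R : Subgroup ↥L) = (centralizer ({z₁} : Set G)).subgroupOf L ∧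
        (frattini ↥(R : Subgroup ↥L)).map ((L.subtype).comp (R : Subgroup ↥L).subtype) ≤ zpowers z₁) ∧
      Q ≠ (pCore 2 ↥(centralizer ({z} : Set G))).map (centralizer ({z} : Set G)).subtype) := by
  have hls := LS.of_large hQ hz
  by_cases hcomm : ∀ a ∈ M, ∀ b ∈ M, a * b = b * a
  · left
    exact ⟨comm_iff.mpr hcomm, abelian_case hls hM hcomm⟩
  · right
    have hnab : ∃ a ∈ M, ∃ b ∈ M, a * b ≠ b * a := by
      push Not at hcomm
      exact hcomm
    have hMne : M ≠ ⊥ := by
      intro e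
      obtain ⟨a, ha, b, hb, hab⟩ := hnab
      rw [e] at ha hb
      apply hab
      rw [Subgroup.mem_bot.mp ha, Subgroup.mem_bot.mp hb]
    obtain ⟨L, hL⟩ := exists_minN hMne
    have h : Ctx Q M L z := ⟨hls, hM, hnab, hL⟩
    have hnabL : ¬ IsMulCommutative ↥L := by
      intro hc
      obtain ⟨a, ha, b, hb, hab⟩ := h.nabL
      exact hab (comm_iff.mp hc a ha b hb)
    by_cases hu : ∀ x ∈ Q, cj x L = L
    · left
      have e := h.eq_of_stable hu
      refine ⟨h.gfit_eq, ?_, ?_⟩
      · rw [← e]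
        exact h.simple
      · rw [← e]
        exact hnabL
    · right
      push Not at hu
      obtain ⟨u, huQ, hne⟩ := hu
      exact ⟨h.gfit_eq, L, u, huQ, h.simple, hnabL, h.two_case huQ hne⟩

end Cfsg.Agent.Lib.LargeX.SS
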