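/-
Simplicity results from the structure of groups with a large extraspecial subgroup (helper18).
-/
import Cfsg.Agent.Lib.LargeX.Struct
import Cfsg.Agent.Lib.LargeX.Four
import Cfsg.Agent.S5421

set_option autoImplicit false
set_option linter.unusedSectionVars false
set_option linter.style.haveILetI false

namespace Cfsg.Agent.Lib.LargeX.SS

open Subgroup Cfsg Cfsg.Agent.Lib.TwoFusion Cfsg.Agent.Lib.Components

variable {G : Type*} [Group G]

/-- Being extraspecial passes through isomorphisms. -/
theorem isExtraspecial_equiv {X Y : Type*} [Group X] [Group Y] (e : X ≃* Y) {p : ℕ}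
    (h : IsExtraspecial p X) : IsExtraspecial p Y := by
  obtain ⟨⟨hp, hfr, hcm⟩, hZ⟩ := h
  have hcenter : (center X).map e.toMonoidHom = center Y := by
    ext y
    constructor
    · rintro ⟨x, hx, rfl⟩
      rw [mem_center_iff]
      intro w
      obtain ⟨v, rfl⟩ := e.surjective w
      have := mem_center_iff.mp hx v
      show e v * e x = e x * e v
      rw [← map_mul, ← map_mul, this]
    · intro hy
      refine ⟨e.symm y, ?_, by simp⟩
      rw [SetLike.mem_coe, mem_center_iff]
      intro v
      apply e.injective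
      rw [map_mul, map_mul, MulEquiv.apply_symm_apply]
      exact mem_center_iff.mp hy (e v)
  have hfrat : (frattini X).map e.toMonoidHom = frattini Y := by
    apply le_antisymm
    · have := frattini_le_comap_frattini_of_surjective (φ := e.toMonoidHom) e.surjective
      exact Subgroup.map_le_iff_le_comap.mpr this
    · have := frattini_le_comap_frattini_of_surjective (φ := e.symm.toMonoidHom) e.symm.surjective
      intro y hy
      refine ⟨e.symm y, this hy, by simp⟩
  have hcomm : (commutator X).map e.toMonoidHom = commutator Y := by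
    rw [_root_.commutator_def, _root_.commutator_def, Subgroup.map_commutator,
      Subgroup.map_top_of_surjective _ e.surjective]
  refine ⟨⟨hp.of_equiv e, ?_, ?_⟩, ?_⟩
  · rw [← hfrat, hfr, hcenter]
  · rw [← hcomm, hcm, hcenter]
  · rw [← hcenter, ← hZ]
    exact Nat.card_congr (Subgroup.equivMapOfInjective _ _ e.injective).symm.toEquiv

variable [Finite G]

/-- Extraspecial groups are non-abelian. -/
theorem noncomm_of_extraspecial {Q : Subgroup G} (hE : IsExtraspecial 2 ↥Q) :
    ∃ a ∈ Q, ∃ b ∈ Q, a * b ≠ b * a := by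
  by_contra hcon
  push Not at hcon
  have h1 : commutator ↥Q = ⊥ := by
    rw [commutator_eq_bot_iff_center_eq_top, Subgroup.eq_top_iff']
    intro x
    rw [mem_center_iff]
    intro y
    exact Subtype.ext (hcon y y.2 x x.2)
  have h2 := hE.1.2.2
  rw [h1] at h2
  have h3 := hE.2
  rw [← h2] at h3
  simp at h3

/-- `G` is simple once the centralizer of `z` lies in the normal closure of `z`. -/
theorem simple_of_centralizer_le {Q : Subgroup G} (hQ : IsLargeExtraspecial Q) {z : G}
    (hz : (center ↥Q).map Q.subtype = zpowers z)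
    (hC : centralizer ({z} : Set G) ≤ normalClosure ({z} : Set G)) : IsSimpleGroup G := by
  haveI : Fact (Nat.Prime 2) := ⟨Nat.prime_two⟩
  have hls := LS.of_large hQ hz
  have hes := hls.es
  have hQC : Q ≤ centralizer ({z} : Set G) := fun q hq =>
    mem_centralizer_singleton_iff.mpr (hes.z_central q hq)
  rcases main_structure Q hQ z hz _ rfl with h | h | h
  · exfalso
    have hab := comm_iff.mp h.1
    obtain ⟨a, ha, b, hb, hne⟩ := noncomm_of_extraspecial hQ.1
    exact hne (hab a (hC (hQC ha)) b (hC (hQC hb)))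
  · -- the simple case
    obtain ⟨-, hs, -⟩ := h
    have hQ2 : IsPGroup 2 Q := hQ.1.1.1
    obtain ⟨S, hS⟩ := hQ2.exists_le_sylow
    have hSz := hls.pgroup_le S.isPGroup' hS
    have hSM : (S : Subgroup G) ≤ normalClosure ({z} : Set G) := hSz.trans hC
    haveI : (normalClosure ({z} : Set G)).Normal := normalClosure_normal
    have htop := S.normalizer_sup_eq_top' hSM
    have hNM : normalizer ((S : Subgroup G) : Set G) ≤ normalClosure ({z} : Set G) := by
      intro g hg
      apply hC
      have hgz : g * z * g⁻¹ ∈ (S : Subgroup G) :=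
        (mem_normalizer_iff.mp hg z).mp (hS hes.z_mem)
      have hcomm : ∀ q ∈ Q, q * (g * z * g⁻¹) = (g * z * g⁻¹) * q := by
        intro q hq
        have h1 : g⁻¹ * q * g ∈ (S : Subgroup G) := by
          have := (mem_normalizer_iff.mp (inv_mem hg) q).mp (hS hq)
          simpa using this
        have h2 := mem_centralizer_singleton_iff.mp (hSz h1)
        calc q * (g * z * g⁻¹) = g * ((g⁻¹ * q * g) * z) * g⁻¹ := by group
          _ = g * (z * (g⁻¹ * q * g)) * g⁻¹ := by rw [h2]
          _ = (g * z * g⁻¹) * q := by group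
      rcases hls.cent _ hcomm with e | e
      · exfalso
        apply hes.z_ne
        have : z = g⁻¹ * (g * z * g⁻¹) * g := by group
        rw [this, e]
        group
      · rw [mem_centralizer_singleton_iff]
        calc g * z = (g * z * g⁻¹) * g := by group
          _ = z * g := by rw [e]
    have hM : normalClosure ({z} : Set G) = ⊤ := by
      rw [← htop]
      exact le_antisymm le_sup_right (sup_le hNM le_rfl)
    rw [hM] at hs
    exact (Subgroup.topEquiv (G := G)).symm.isSimpleGroup
  · -- the two-component case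
    exfalso
    obtain ⟨-, L, u, hu, hs, -, hi, hc, hsup, -⟩ := h
    have huM : u ∈ L ⊔ cj u L := by
      rw [hsup]
      exact hC (hQC hu)
    obtain ⟨a, ha, b, hb, e⟩ := exists_mul_of_mem_sup_of_commutes hc huM
    have hle : cj u L ≤ L ⊓ cj u L := by
      refine le_inf ?_ le_rfl
      rintro _ ⟨x, hx, rfl⟩
      show u * x * u⁻¹ ∈ L
      have h1 : x * b = b * x := hc x hx b hb
      have e2 : u * x * u⁻¹ = a * x * a⁻¹ := by
        rw [e]
        calc a * b * x * (a * b)⁻¹ = a * (b * x) * b⁻¹ * a⁻¹ := by group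
          _ = a * (x * b) * b⁻¹ * a⁻¹ := by rw [h1]
          _ = a * x * a⁻¹ := by group
      rw [e2]
      exact L.mul_mem (L.mul_mem ha hx) (L.inv_mem ha)
    rw [hi, le_bot_iff] at hle
    have hL : L ≠ ⊥ := by
      intro hb
      have := hs.toNontrivial
      rw [hb] at this
      exact not_nontrivial _ this
    exact cj_ne_bot hL u hle

/-- The setting from a generalized Fitting hypothesis. -/
theorem setting_of_gfit {z : G} (hz : orderOf z = 2) {Q : Subgroup G}
    (hQC : Q ≤ centralizer ({z} : Set G))
    (hF : (generalizedFittingSubgroup ↥(centralizer ({z} : Set G))).map (centralizer ({z} : Set G)).subtype = Q)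
    (hQ : IsExtraspecial 2 ↥Q) :
    z ∈ Q ∧ (center ↥Q).map Q.subtype = zpowers z ∧
    centralizer (Q : Set G) = (center ↥Q).map Q.subtype ∧
    centralizer (((center ↥Q).map Q.subtype : Subgroup G) : Set G) ≤ normalizer (Q : Set G) := by
  set C := centralizer ({z} : Set G) with hC
  have hzC : z ∈ C := by
    rw [hC, mem_centralizer_singleton_iff]
  have hzcen : (⟨z, hzC⟩ : C) ∈ center C := by
    rw [mem_center_iff]
    intro x
    exact Subtype.ext (mem_centralizer_singleton_iff.mp x.2)
  have hzF : (⟨z, hzC⟩ : C) ∈ generalizedFittingSubgroup C := by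
    apply fitting_le_gfit
    have h1 : center C ≤ fittingSubgroup C := by
      apply le_fitting inferInstance
      exact isNilpotent_of_forall_commute fun a b => Subtype.ext (mem_center_iff.mp a.2 b).symm
    exact h1 hzcen
  have hzQ : z ∈ Q := by
    rw [← hF]
    exact ⟨_, hzF, rfl⟩
  have hzZ : (⟨z, hzQ⟩ : Q) ∈ center Q := by
    rw [mem_center_iff]
    intro x
    exact Subtype.ext (mem_centralizer_singleton_iff.mp (hQC x.2))
  have hZ : (center ↥Q).map Q.subtype = zpowers z := by
    symm
    apply Subgroup.eq_of_le_of_card_ge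
    · rw [zpowers_le]
      exact ⟨_, hzZ, rfl⟩
    · rw [Nat.card_zpowers, hz]
      have : Nat.card ↥((center ↥Q).map Q.subtype) = Nat.card (center ↥Q) :=
        Nat.card_congr (Subgroup.equivMapOfInjective _ _ Q.subtype_injective).symm.toEquiv
      rw [this, hQ.2]
  refine ⟨hzQ, hZ, ?_, ?_⟩
  · apply le_antisymm
    · intro g hg
      have hgz : g * z = z * g := (mem_centralizer_iff.mp hg z hzQ).symm
      have hgC : g ∈ C := mem_centralizer_singleton_iff.mpr hgz
      have hgF : (⟨g, hgC⟩ : C) ∈ generalizedFittingSubgroup C := by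
        apply centralizer_gfit_le
        rw [mem_centralizer_iff]
        intro y hy
        have hyQ : (y : G) ∈ Q := by
          rw [← hF]
          exact ⟨y, hy, rfl⟩
        exact Subtype.ext (mem_centralizer_iff.mp hg y hyQ)
      have hgQ : g ∈ Q := by
        rw [← hF]
        exact ⟨_, hgF, rfl⟩
      refine ⟨⟨g, hgQ⟩, ?_, rfl⟩
      rw [SetLike.mem_coe, mem_center_iff]
      intro x
      exact Subtype.ext (mem_centralizer_iff.mp hg x x.2)
    · rintro _ ⟨x, hx, rfl⟩
      rw [mem_centralizer_iff]
      intro y hy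
      exact congrArg Subtype.val (mem_center_iff.mp hx ⟨y, hy⟩)
  · intro g hg
    rw [hZ] at hg
    have hgz : g * z = z * g := (mem_centralizer_iff.mp hg z (mem_zpowers z)).symm
    have hgC : g ∈ C := mem_centralizer_singleton_iff.mpr hgz
    apply mem_norm_of_map_le
    intro a ha
    rw [← hF] at ha ⊢
    obtain ⟨b, hb, rfl⟩ := ha
    exact ⟨⟨g, hgC⟩ * b * ⟨g, hgC⟩⁻¹, (inferInstance : (generalizedFittingSubgroup C).Normal).conj_mem b hb _, rfl⟩

/-- **S5427**. -/
theorem s5427 (z : G) (hz : orderOf z = 2) (Q : Subgroup G) (hQC : Q ≤ centralizer ({z} : Set G))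
    (hF : (generalizedFittingSubgroup ↥(centralizer ({z} : Set G))).map (centralizer ({z} : Set G)).subtype = Q)
    (hQ : IsExtraspecial 2 ↥Q) (K U : Subgroup G) (hU : U = Subgroup.closure {x : G | ∃ k ∈ K, x = k * z * k⁻¹})
    (hUab : IsMulCommutative ↥U)
    (hgen : Subgroup.closure {x : G | ∃ c ∈ centralizer ({z} : Set G), ∃ u ∈ U, x = c * u * c⁻¹} = centralizer ({z} : Set G))
    (h3 : (∃ k ∈ K, k * z * k⁻¹ ∈ Q ∧ k * z * k⁻¹ ≠ z) ∨ ∃ u ∈ U ⊓ Q, u ∉ zpowers z ∧
      (∃ hz' : z ∈ centralizer ({u} : Set G), (⟨z, hz'⟩ : ↥(centralizer ({u} : Set G))) ∈ pCore 2 ↥(centralizer ({u} : Set G)))) :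
    IsSimpleGroup G ∧ IsLargeExtraspecial Q := by
  obtain ⟨hzQ, hZ, hL2, hL3⟩ := setting_of_gfit hz hQC hF hQ
  have hzz : z * z = 1 := by
    have := pow_orderOf_eq_one z
    rw [hz, pow_two] at this
    exact this
  have hz1 : z ≠ 1 := by
    rintro rfl
    simp at hz
  have hlarge : IsLargeExtraspecial Q := by
    rcases h3 with ⟨k, -, hkQ, hkz⟩ | ⟨u, huUQ, huz, hz', hzO⟩
    · refine (weakly_not_closed hQ hL2 hL3 k ?_ ?_).2.2
      · intro hk
        have h1 : k * z * k⁻¹ ∈ (center ↥Q).map Q.subtype := by
          have h2 : z ∈ ((center ↥Q).map Q.subtype : Subgroup G) := by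
            rw [hZ]
            exact mem_zpowers z
          exact (mem_normalizer_iff.mp hk z).mp h2
        rw [hZ, mem_zpowers_iff] at h1
        obtain ⟨n, hn⟩ := h1
        rcases Int.even_or_odd' n with ⟨m, rfl | rfl⟩
        · rw [zpow_mul, zpow_two, hzz, one_zpow] at hn
          apply hz1
          have : z = k⁻¹ * (k * z * k⁻¹) * k := by group
          rw [this, ← hn]
          group
        · rw [zpow_add, zpow_mul, zpow_two, hzz, one_zpow, one_mul, zpow_one] at hn
          exact hkz hn.symm
      · change ((center ↥Q).map Q.subtype).map (MulAut.conj k).toMonoidHom ≤ Q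
        rw [hZ, Subgroup.map_le_iff_le_comap, zpowers_le]
        exact hkQ
    · have huu : ∀ x ∈ U, x * x = 1 := by
        have hab := comm_iff.mp hUab
        intro x hx
        have hgenU : ∀ x ∈ Subgroup.closure {x : G | ∃ k ∈ K, x = k * z * k⁻¹}, x * x = 1 := by
          intro x hx
          induction hx using Subgroup.closure_induction with
          | mem y hy =>
            obtain ⟨k, -, rfl⟩ := hy
            have e : k * z * k⁻¹ * (k * z * k⁻¹) = k * (z * z) * k⁻¹ := by group
            rw [e, hzz]
            group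
          | one => simp
          | mul a b ha hb iha ihb =>
            have hcm : a * b = b * a := hab a (hU ▸ ha) b (hU ▸ hb)
            calc a * b * (a * b) = a * (b * a) * b := by group
              _ = a * (a * b) * b := by rw [hcm]
              _ = (a * a) * (b * b) := by group
              _ = 1 := by rw [iha, ihb, one_mul]
          | inv a ha iha =>
            rw [← mul_inv_rev, iha, inv_one]
        exact hgenU x (hU ▸ hx)
      have hu1 : u ≠ 1 := by
        rintro rfl
        exact huz (one_mem _)
      have huo : orderOf u = 2 :=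
        orderOf_eq_prime (by rw [pow_two]; exact huu u huUQ.1) hu1
      refine Cfsg.Agent.S5421.result Q hQ hL2 hL3 u huUQ.2 (hZ ▸ huz) huo ?_
      rw [hZ, zpowers_le]
      exact ⟨_, hzO, rfl⟩
  refine ⟨?_, hlarge⟩
  apply simple_of_centralizer_le hlarge hZ
  rw [← hgen, Subgroup.closure_le]
  rintro _ ⟨c, -, u, hu, rfl⟩
  have hN : (normalClosure ({z} : Set G)).Normal := normalClosure_normal
  apply hN.conj_mem
  rw [hU] at hu
  refine (Subgroup.closure_le _).mpr ?_ hu
  rintro _ ⟨k, -, rfl⟩
  exact hN.conj_mem z (subset_normalClosure rfl) k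

/-- **S5436**. -/
theorem s5436 (z : G) (hz : orderOf z = 2) (Q : Subgroup (centralizer ({z} : Set G))) [Q.Normal]
    (hF : generalizedFittingSubgroup ↥(centralizer ({z} : Set G)) = Q) (hQ : IsExtraspecial 2 ↥Q)
    (hnwc : ∃ g : G, (∃ hq : g * z * g⁻¹ ∈ centralizer ({z} : Set G),
      (⟨g * z * g⁻¹, hq⟩ : centralizer ({z} : Set G)) ∈ Q) ∧ g * z * g⁻¹ ≠ z)
    (hsimp : IsSimpleGroup (↥(centralizer ({z} : Set G)) ⧸ Q))
    (hirr : ∀ W : Subgroup (centralizer ({z} : Set G)), W.Normal → W ≤ Q →
      (W = Q ∨ ∀ x ∈ W, (x : G) ∈ zpowers z))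
    (hwcl : Subgroup.closure {x : centralizer ({z} : Set G) | IsConj z (x : G)} ≠ Q) :
    IsSimpleGroup G := by
  let Q' : Subgroup G := Q.map (centralizer ({z} : Set G)).subtype
  have hQ' : IsExtraspecial 2 ↥Q' := isExtraspecial_equiv (Subgroup.equivMapOfInjective Q (centralizer ({z} : Set G)).subtype (centralizer ({z} : Set G)).subtype_injective) hQ
  have hQ'C : Q' ≤ (centralizer ({z} : Set G)) := map_subtype_le _
  have hF' : (generalizedFittingSubgroup ↥(centralizer ({z} : Set G))).map (centralizer ({z} : Set G)).subtype = Q' := by rw [hF]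
  obtain ⟨hzQ, hZ, hL2, hL3⟩ := setting_of_gfit hz hQ'C hF' hQ'
  have hzz : z * z = 1 := by
    have := pow_orderOf_eq_one z
    rw [hz, pow_two] at this
    exact this
  have hz1 : z ≠ 1 := by
    rintro rfl
    simp at hz
  obtain ⟨g, ⟨hgC, hgQ⟩, hgz⟩ := hnwc
  have hnot : g * z * g⁻¹ ∉ zpowers z := by
    intro h1
    rw [mem_zpowers_iff] at h1
    obtain ⟨n, hn⟩ := h1
    rcases Int.even_or_odd' n with ⟨m, rfl | rfl⟩
    · rw [zpow_mul, zpow_two, hzz, one_zpow] at hn
      apply hz1
      have : z = g⁻¹ * (g * z * g⁻¹) * g := by group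
      rw [this, ← hn]
      group
    · rw [zpow_add, zpow_mul, zpow_two, hzz, one_zpow, one_mul, zpow_one] at hn
      exact hgz hn.symm
  have hlarge : IsLargeExtraspecial Q' := by
    refine (weakly_not_closed hQ' hL2 hL3 g ?_ ?_).2.2
    · intro hk
      have h2 : z ∈ ((center ↥Q').map Q'.subtype : Subgroup G) := by
        rw [hZ]
        exact mem_zpowers z
      have h1 : g * z * g⁻¹ ∈ ((center ↥Q').map Q'.subtype : Subgroup G) :=
        (mem_normalizer_iff.mp hk z).mp h2
      rw [hZ] at h1
      exact hnot h1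
    · change ((center ↥Q').map Q'.subtype).map (MulAut.conj g).toMonoidHom ≤ Q'
      rw [hZ, Subgroup.map_le_iff_le_comap, zpowers_le]
      exact ⟨_, hgQ, rfl⟩
  apply simple_of_centralizer_le hlarge hZ
  -- the subgroup `D` generated by the conjugates of `z` in `C`
  let D : Subgroup (centralizer ({z} : Set G)) := Subgroup.closure {x : (centralizer ({z} : Set G)) | IsConj z (x : G)}
  have hDn : D.Normal := by
    constructor
    intro n hn g
    induction hn using Subgroup.closure_induction with
    | mem y hy =>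
      apply Subgroup.subset_closure
      have h1 : IsConj z (y : G) := hy
      show IsConj z ((g * y * g⁻¹ : (centralizer ({z} : Set G))) : G)
      refine h1.trans ?_
      rw [isConj_iff]
      exact ⟨g, rfl⟩
    | one =>
      have e : g * 1 * g⁻¹ = 1 := by group
      rw [e]
      exact one_mem _
    | mul a b _ _ iha ihb =>
      have := mul_mem iha ihb
      have e : g * (a * b) * g⁻¹ = g * a * g⁻¹ * (g * b * g⁻¹) := by group
      rw [e]
      exact this
    | inv a _ iha =>
      have := inv_mem iha
      have e : g * a⁻¹ * g⁻¹ = (g * a * g⁻¹)⁻¹ := by group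
      rw [e]
      exact this
  have hQD : Q ≤ D := by
    have hW : (D ⊓ Q).Normal := inferInstance
    rcases hirr (D ⊓ Q) hW inf_le_right with e | e
    · rw [← e]
      exact inf_le_left
    · exfalso
      refine hnot (e ⟨g * z * g⁻¹, hgC⟩ ⟨?_, hgQ⟩)
      apply Subgroup.subset_closure
      show IsConj z (g * z * g⁻¹)
      rw [isConj_iff]
      exact ⟨g, rfl⟩
  have hDtop : D = ⊤ := by
    have hne : D ≠ Q := hwcl
    have hmap : (D.map (QuotientGroup.mk' Q)).Normal := hDn.map _ (QuotientGroup.mk'_surjective Q)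
    rcases hsimp.eq_bot_or_eq_top_of_normal _ hmap with e | e
    · exfalso
      apply hne
      apply le_antisymm _ hQD
      intro x hx
      have h1 : (QuotientGroup.mk' Q) x ∈ D.map (QuotientGroup.mk' Q) := ⟨x, hx, rfl⟩
      rw [e, Subgroup.mem_bot] at h1
      exact (QuotientGroup.eq_one_iff x).mp h1
    · rw [eq_top_iff]
      intro x _
      have h1 : (QuotientGroup.mk' Q) x ∈ D.map (QuotientGroup.mk' Q) := by
        rw [e]
        trivial
      obtain ⟨y, hy, e1⟩ := h1
      have h2 : y⁻¹ * x ∈ Q := QuotientGroup.eq.mp e1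
      have h3 := D.mul_mem hy (hQD h2)
      simpa using h3
  intro c hc
  have hcD : (⟨c, hc⟩ : (centralizer ({z} : Set G))) ∈ D := by
    rw [hDtop]
    trivial
  have hgenD : ∀ x ∈ D, (x : G) ∈ normalClosure ({z} : Set G) := by
    intro x hx
    induction hx using Subgroup.closure_induction with
    | mem y hy =>
      have h1 : IsConj z (y : G) := hy
      obtain ⟨c, hc⟩ := isConj_iff.mp h1
      rw [← hc]
      exact (normalClosure_normal (s := ({z} : Set G))).conj_mem z (subset_normalClosure rfl) c
    | one => exact one_mem _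
    | mul a b _ _ iha ihb => exact mul_mem iha ihb
    | inv a _ iha => exact inv_mem iha
  exact hgenD _ hcD

end Cfsg.Agent.Lib.LargeX.SS
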