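/-
Large extraspecial images in quotients of subgroups (helper18).
-/
import Cfsg.Agent.Lib.LargeX.StructSimple
import Cfsg.Agent.Lib.LargeX.ToExtra

set_option autoImplicit false
set_option linter.unusedSectionVars false
set_option linter.style.haveILetI false

namespace Cfsg.Agent.Lib.LargeX.SS

open Subgroup Cfsg Cfsg.Agent.Lib.TwoFusion Cfsg.Agent.Lib.Components

open scoped commutatorElement

variable {G : Type*} [Group G] [Finite G]

theorem zd_eq {X : Type*} [Group X] {R : Subgroup X} {z : X} (E : ES R z) : Zd R = zpowers z := by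
  apply le_antisymm
  · rintro _ ⟨a, ha, rfl⟩
    rcases E.center a a.2 (fun q hq => congrArg Subtype.val (mem_center_iff.mp ha ⟨q, hq⟩)) with e | e
    · show (a : X) ∈ zpowers z
      rw [e]
      exact one_mem _
    · show (a : X) ∈ zpowers z
      rw [e]
      exact mem_zpowers z
  · rw [zpowers_le]
    refine ⟨⟨z, E.z_mem⟩, ?_, rfl⟩
    rw [SetLike.mem_coe, mem_center_iff]
    intro q
    exact Subtype.ext (E.z_central q q.2)

theorem zpowers_two_cases {X : Type*} [Group X] {z a : X} (hzz : z * z = 1) (ha : a ∈ zpowers z) :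
    a = 1 ∨ a = z := by
  obtain ⟨n, rfl⟩ := mem_zpowers_iff.mp ha
  rcases Int.even_or_odd' n with ⟨m, rfl | rfl⟩
  · left
    rw [zpow_mul, zpow_two, hzz, one_zpow]
  · right
    rw [zpow_add, zpow_mul, zpow_two, hzz, one_zpow, one_mul, zpow_one]

/-- The bar criterion: the image of `P` in `H/N` is large extraspecial. -/
theorem bar_large {H N P : Subgroup G} {z y x : G} [hn : (N.subgroupOf H).Normal] (hPH : P ≤ H)
    (hzP : z ∈ P) (hzN : z ∉ N) (hzz : z * z = 1) (hzc : ∀ q ∈ P, q * z = z * q)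
    (hcomm : ∀ a ∈ P, ∀ b ∈ P, a * b * a⁻¹ * b⁻¹ = 1 ∨ a * b * a⁻¹ * b⁻¹ = z)
    (hsq : ∀ a ∈ P, a * a = 1 ∨ a * a = z)
    (hB2 : ∀ c ∈ H, (∀ q ∈ P, c * q * c⁻¹ * q⁻¹ ∈ N) → c ∈ N ∨ c * z ∈ N)
    (hB3 : ∀ c ∈ H, c * z * c⁻¹ * z⁻¹ ∈ N → ∀ q ∈ P, ∃ p ∈ P, c * q * c⁻¹ * p⁻¹ ∈ N)
    (hxH : x ∈ H) (hy : y ∈ P) (hyN : y ∉ N) (hyz : y * z ∉ N) (hxy : x * y * x⁻¹ = z)
    (hne : ∃ a ∈ P, ∃ b ∈ P, a * b * a⁻¹ * b⁻¹ ∉ N) :
    IsLargeExtraspecial ((P.subgroupOf H).map (QuotientGroup.mk' (N.subgroupOf H))) := by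
  classical
  set π : ↥H →* ↥H ⧸ N.subgroupOf H := QuotientGroup.mk' (N.subgroupOf H) with hπ
  set P' : Subgroup (↥H ⧸ N.subgroupOf H) := (P.subgroupOf H).map π with hP'
  have hsurj : Function.Surjective π := QuotientGroup.mk'_surjective _
  have hone : ∀ c : H, π c = 1 ↔ (c : G) ∈ N := by
    intro c
    rw [hπ, QuotientGroup.mk'_apply, QuotientGroup.eq_one_iff, mem_subgroupOf]
  have hmemP : ∀ {q : H}, (q : G) ∈ P → π q ∈ P' := fun hq => ⟨_, mem_subgroupOf.mpr hq, rfl⟩
  let zz : H := ⟨z, hPH hzP⟩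
  have hzz2 : zz * zz = 1 := Subtype.ext hzz
  have hzzinv : π zz * π zz = 1 := by rw [← map_mul, hzz2, map_one]
  -- the central involution in the quotient
  have hcent2 : ∀ c : H, (∀ q ∈ P', q * π c = π c * q) → π c = 1 ∨ π c = π zz := by
    intro c hc
    have h1 : ∀ q ∈ P, (c : G) * q * (c : G)⁻¹ * q⁻¹ ∈ N := by
      intro q hq
      let q' : H := ⟨q, hPH hq⟩
      have h2 := hc (π q') (hmemP hq)
      have h3 : π (c * q' * c⁻¹ * q'⁻¹) = 1 := by
        simp only [map_mul, map_inv]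
        rw [← h2]
        group
      exact (hone _).mp h3
    rcases hB2 c c.2 h1 with e | e
    · left
      exact (hone c).mpr e
    · right
      have h3 : π (c * zz) = 1 := (hone _).mpr e
      rw [map_mul] at h3
      calc π c = π c * (π zz * π zz) := by rw [hzzinv, mul_one]
        _ = (π c * π zz) * π zz := by group
        _ = π zz := by rw [h3, one_mul]
  have E : ES P' (π zz) := by
    refine ⟨hmemP hzP, ?_, hzzinv, ?_, ?_, ?_, ?_⟩
    · intro e
      exact hzN ((hone zz).mp e)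
    · rintro _ ⟨a, ha, rfl⟩
      rw [← map_mul, ← map_mul]
      congr 1
      exact Subtype.ext (hzc a (mem_subgroupOf.mp ha))
    · rintro _ ⟨a, ha, rfl⟩ _ ⟨b, hb, rfl⟩
      have e : π a * π b * (π a)⁻¹ * (π b)⁻¹ = π (a * b * a⁻¹ * b⁻¹) := by
        simp only [map_mul, map_inv]
      rw [e]
      rcases hcomm a (mem_subgroupOf.mp ha) b (mem_subgroupOf.mp hb) with e1 | e1
      · left
        have : a * b * a⁻¹ * b⁻¹ = 1 := Subtype.ext e1
        rw [this, map_one]
      · right
        have : a * b * a⁻¹ * b⁻¹ = zz := Subtype.ext e1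
        rw [this]
    · rintro _ ⟨a, ha, rfl⟩
      rw [← map_mul]
      rcases hsq a (mem_subgroupOf.mp ha) with e1 | e1
      · left
        have : a * a = 1 := Subtype.ext e1
        rw [this, map_one]
      · right
        have : a * a = zz := Subtype.ext e1
        rw [this]
    · rintro _ ⟨a, _, rfl⟩ hc
      exact hcent2 a hc
  have hne' : ∃ a ∈ P', ∃ b ∈ P', a * b ≠ b * a := by
    obtain ⟨a, ha, b, hb, hab⟩ := hne
    let a' : H := ⟨a, hPH ha⟩
    let b' : H := ⟨b, hPH hb⟩
    refine ⟨π a', hmemP ha, π b', hmemP hb, ?_⟩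
    intro e
    apply hab
    have h1 : π (a' * b' * a'⁻¹ * b'⁻¹) = 1 := by
      simp only [map_mul, map_inv]
      rw [e]
      group
    exact (hone _).mp h1
  have hE := ES.isExtraspecial E hne'
  have hZd := zd_eq E
  have hL2 : centralizer (P' : Set (↥H ⧸ N.subgroupOf H)) = Zd P' := by
    rw [hZd]
    apply le_antisymm
    · intro c hc
      obtain ⟨c', rfl⟩ := hsurj c
      have h1 : ∀ q ∈ P', q * π c' = π c' * q := fun q hq => mem_centralizer_iff.mp hc q hq
      rcases hcent2 c' h1 with e | e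
      · rw [e]
        exact one_mem _
      · rw [e]
        exact mem_zpowers _
    · rw [zpowers_le, mem_centralizer_iff]
      intro q hq
      exact E.z_central q hq
  have hL3 : centralizer ((Zd P' : Subgroup (↥H ⧸ N.subgroupOf H)) : Set (↥H ⧸ N.subgroupOf H)) ≤ normalizer (P' : Set (↥H ⧸ N.subgroupOf H)) := by
    rw [hZd]
    intro c hc
    obtain ⟨c', rfl⟩ := hsurj c
    have hcz : π zz * π c' = π c' * π zz := mem_centralizer_iff.mp hc (π zz) (mem_zpowers _)
    have h1 : π (c' * zz * c'⁻¹ * zz⁻¹) = 1 := by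
      simp only [map_mul, map_inv]
      rw [← hcz]
      group
    have h2 := hB3 c' c'.2 ((hone _).mp h1)
    apply mem_norm_of_map_le
    rintro _ ⟨q, hq, rfl⟩
    obtain ⟨p, hp, hpN⟩ := h2 q (mem_subgroupOf.mp hq)
    let p' : H := ⟨p, hPH hp⟩
    have h3 : π (c' * q * c'⁻¹ * p'⁻¹) = 1 := (hone _).mpr hpN
    have h4 : π c' * π q * (π c')⁻¹ = π p' := by
      simp only [map_mul, map_inv] at h3
      exact mul_inv_eq_one.mp h3
    rw [h4]
    exact hmemP hp
  let x' : H := ⟨x, hxH⟩
  let y' : H := ⟨y, hPH hy⟩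
  have hxy' : x' * y' * x'⁻¹ = zz := Subtype.ext hxy
  have hconj : (π x')⁻¹ * π zz * ((π x')⁻¹)⁻¹ = π y' := by
    rw [← hxy']
    simp only [map_mul, map_inv]
    group
  refine (Cfsg.Agent.Lib.LargeX.weakly_not_closed hE hL2 hL3 (π x')⁻¹ ?_ ?_).2.2
  · intro hg
    have h2 : π zz ∈ (Zd P' : Subgroup (↥H ⧸ N.subgroupOf H)) := by
      rw [hZd]
      exact mem_zpowers _
    have h3 : π y' ∈ (Zd P' : Subgroup (↥H ⧸ N.subgroupOf H)) := by
      rw [← hconj]
      exact (mem_normalizer_iff.mp hg _).mp h2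
    rw [hZd] at h3
    rcases zpowers_two_cases hzzinv h3 with e | e
    · exact hyN ((hone y').mp e)
    · apply hyz
      have : π (y' * zz) = 1 := by
        rw [map_mul, e, hzzinv]
      exact (hone (y' * zz)).mp this
  · change (Zd P').map (MulAut.conj (π x')⁻¹).toMonoidHom ≤ P'
    rw [hZd, Subgroup.map_le_iff_le_comap, zpowers_le, Subgroup.mem_comap]
    show (π x')⁻¹ * π zz * ((π x')⁻¹)⁻¹ ∈ P'
    rw [hconj]
    exact hmemP hy

/-- Coprime action on an extraspecial group: the fixed points are non-degenerate. -/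
theorem coprime_center {Q A : Subgroup G} {z : G} (E : ES Q z) (hA : A ≤ normalizer (Q : Set G))
    (hAodd : Odd (Nat.card ↥A)) :
    ∀ r ∈ Q ⊓ centralizer (A : Set G), (∀ s ∈ Q ⊓ centralizer (A : Set G), s * r = r * s) → r = 1 ∨ r = z := by
  haveI : Fact (Nat.Prime 2) := ⟨Nat.prime_two⟩
  have hp : IsPGroup 2 Q := by
    rintro ⟨x, hx⟩
    refine ⟨2, ?_⟩
    apply Subtype.ext
    simpa using es_four E hx
  have hCA : Coprime.CoprimeAction A Q := by
    refine ⟨hA, ?_, Or.inr ?_⟩
    · obtain ⟨n, hn⟩ := (IsPGroup.iff_card (p := 2) (G := Q)).mp hp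
      rw [hn]
      exact Nat.Coprime.pow_right _ hAodd.coprime_two_right
    · haveI : Group.IsNilpotent ↥Q := hp.isNilpotent
      infer_instance
  have hAz : ∀ a ∈ A, a * z = z * a := by
    intro a ha
    have h1 : a * z * a⁻¹ ∈ Q := (Subgroup.mem_normalizer_iff.mp (hA ha) z).mp E.z_mem
    have h2 : ∀ q ∈ Q, q * (a * z * a⁻¹) = (a * z * a⁻¹) * q := by
      intro q hq
      have h3 : a⁻¹ * q * a ∈ Q := by
        have := (Subgroup.mem_normalizer_iff.mp (hA (A.inv_mem ha)) q).mp hq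
        rwa [inv_inv] at this
      have h4 := E.z_central _ h3
      calc q * (a * z * a⁻¹) = a * ((a⁻¹ * q * a) * z) * a⁻¹ := by group
        _ = a * (z * (a⁻¹ * q * a)) * a⁻¹ := by rw [h4]
        _ = (a * z * a⁻¹) * q := by group
    rcases E.center _ h1 h2 with h5 | h5
    · exfalso
      apply E.z_ne
      have e : z = a⁻¹ * (a * z * a⁻¹) * a := by group
      rw [e, h5]
      group
    · calc a * z = (a * z * a⁻¹) * a := by group
        _ = z * a := by rw [h5]
  have hZdA : ⁅zpowers z, A⁆ = ⊥ := by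
    rw [Subgroup.commutator_eq_bot_iff_le_centralizer]
    intro b hb
    refine Subgroup.mem_centralizer_iff.mpr fun a ha => ?_
    rcases zpowers_two_cases E.z_sq hb with rfl | rfl
    · simp
    · exact hAz a ha
  have hCommZ : ∀ a ∈ Q, ∀ b ∈ Q, ⁅a, b⁆ ∈ zpowers z := by
    intro a ha b hb
    rw [commutatorElement_def]
    rcases E.comm a ha b hb with e | e <;> rw [e]
    · exact one_mem _
    · exact mem_zpowers z
  let C : Subgroup G := Q ⊓ centralizer (A : Set G)
  have hCQ : C ≤ Q := inf_le_left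
  have hrot : ⁅⁅Q, A⁆, C⁆ = ⊥ := by
    apply Subgroup.commutator_commutator_eq_bot_of_rotate
    · have h1 : ⁅A, C⁆ = ⊥ := by
        rw [Subgroup.commutator_eq_bot_iff_le_centralizer]
        intro a ha
        refine Subgroup.mem_centralizer_iff.mpr fun c hc => ?_
        exact (Subgroup.mem_centralizer_iff.mp (Subgroup.mem_inf.mp hc).2 a ha).symm
      rw [h1, Subgroup.commutator_bot_left]
    · have h1 : ⁅C, Q⁆ ≤ zpowers z := by
        rw [Subgroup.commutator_le]
        intro c hc q hq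
        exact hCommZ c (hCQ hc) q hq
      exact le_bot_iff.mp ((Subgroup.commutator_mono h1 le_rfl).trans hZdA.le)
  have hcomm : ∀ x ∈ C, ∀ y ∈ ⁅Q, A⁆, x * y = y * x := by
    intro x hx y hy
    have h1 := Subgroup.commutator_eq_bot_iff_le_centralizer.mp hrot hy
    exact Subgroup.mem_centralizer_iff.mp h1 x hx
  intro r hr h1
  apply E.center r hr.1
  intro q hq
  obtain ⟨n, hn, c, hc, rfl⟩ := hCA.exists_commutator_mul_centralizer hq
  have h2 := hcomm r hr n hn
  calc n * c * r = n * (c * r) := by group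
    _ = n * (r * c) := by rw [h1 c hc]
    _ = (n * r) * c := by group
    _ = (r * n) * c := by rw [h2]
    _ = r * (n * c) := by group

theorem mem_closure_pair_cases {t z a : G} (htt : t * t = 1) (hzz : z * z = 1) (htz : t * z = z * t)
    (ha : a ∈ Subgroup.closure ({t, z} : Set G)) : a = 1 ∨ a = t ∨ a = z ∨ a = t * z := by
  have h1 : Subgroup.closure ({t, z} : Set G) = zpowers t ⊔ zpowers z := by
    rw [Set.insert_eq, Subgroup.closure_union, Subgroup.zpowers_eq_closure, Subgroup.zpowers_eq_closure]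
  rw [h1] at ha
  have hcomm : ∀ a ∈ zpowers t, ∀ b ∈ zpowers z, a * b = b * a := by
    intro a ha b hb
    rcases zpowers_two_cases htt ha with rfl | rfl <;> rcases zpowers_two_cases hzz hb with rfl | rfl <;>
      simp [htz]
  obtain ⟨b, hb, c, hc, rfl⟩ := exists_mul_of_mem_sup_of_commutes hcomm ha
  rcases zpowers_two_cases htt hb with rfl | rfl <;> rcases zpowers_two_cases hzz hc with rfl | rfl <;>
    simp

/-- **S5429**. -/
theorem s5429 (z : G) (hz : orderOf z = 2) (Q : Subgroup G) (hQC : Q ≤ centralizer ({z} : Set G))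
    (hF : (generalizedFittingSubgroup ↥(centralizer ({z} : Set G))).map (centralizer ({z} : Set G)).subtype = Q)
    (hQ : IsExtraspecial 2 ↥Q) (g : G) (hgQ : g * z * g⁻¹ ∈ Q)
    (hgZ : g * z * g⁻¹ ∉ ((center ↥Q).map Q.subtype)) (t : G) (ht : orderOf t = 2)
    (htQ : t ∈ Q ⊓ (Q).map (MulAut.conj g).toMonoidHom) (htz : ¬ IsConj z t) (P : Subgroup G)
    (hP : P = Q ⊓ centralizer ({t} : Set G))
    (hCP : ∀ c ∈ centralizer ({z} : Set G),
      (∀ x ∈ P, ∃ y ∈ Subgroup.closure ({t, z} : Set G), c * x * c⁻¹ = x * y) ↔ c ∈ Q)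
    [hn : ((zpowers t).subgroupOf (centralizer ({t} : Set G))).Normal] :
    IsLargeExtraspecial ((P.subgroupOf (centralizer ({t} : Set G))).map
      (QuotientGroup.mk' ((zpowers t).subgroupOf (centralizer ({t} : Set G))))) ∧
    ∃ x ∈ P ⊔ ((Q).map (MulAut.conj g).toMonoidHom ⊓ centralizer ({t} : Set G)),
      x * (g * z * g⁻¹) * x⁻¹ = z := by
  obtain ⟨hzQ, hZ, hL2, hL3⟩ := setting_of_gfit hz hQC hF hQ
  have hzz : z * z = 1 := by
    have := pow_orderOf_eq_one z
    rw [hz, pow_two] at this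
    exact this
  have hz1 : z ≠ 1 := by
    rintro rfl
    simp at hz
  have htt : t * t = 1 := by
    have := pow_orderOf_eq_one t
    rw [ht, pow_two] at this
    exact this
  have ht1 : t ≠ 1 := by
    rintro rfl
    simp at ht
  have htne : t ≠ z := by
    rintro rfl
    exact htz (IsConj.refl _)
  have hzc : ∀ q ∈ Q, q * z = z * q := fun q hq => mem_centralizer_singleton_iff.mp (hQC hq)
  have E : ES Q z := ES'.of_extraspecial hQ hzQ hz1 hzc
  have hnorm : ∀ c, c * z = z * c → ∀ q ∈ Q, c * q * c⁻¹ ∈ Q := by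
    intro c hc q hq
    have h1 : c ∈ centralizer (((center ↥Q).map Q.subtype : Subgroup G) : Set G) := by
      rw [hZ, mem_centralizer_iff]
      intro h hh
      rcases zpowers_two_cases hzz hh with rfl | rfl
      · simp
      · exact hc.symm
    exact (mem_normalizer_iff.mp (hL3 h1) q).mp hq
  set y := g * z * g⁻¹ with hy
  have hyy : y * y = 1 := by
    have e : g * z * g⁻¹ * (g * z * g⁻¹) = g * (z * z) * g⁻¹ := by group
    rw [hy, e, hzz]
    group
  have hynotin : y ∉ zpowers z := by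
    rw [← hZ]
    exact hgZ
  have hy1 : y ≠ 1 := fun e => hynotin (e ▸ one_mem _)
  have hyz : y ≠ z := fun e => hynotin (e ▸ mem_zpowers z)
  have htQ1 : t ∈ Q := htQ.1
  have htQ2 : t ∈ cj g Q := htQ.2
  have hyQ : y ∈ Q := hgQ
  have hg' : g ∉ normalizer ((Zd Q : Subgroup G) : Set G) := by
    intro hk
    have h2 : z ∈ (Zd Q : Subgroup G) := by
      rw [show Zd Q = zpowers z from hZ]
      exact mem_zpowers z
    have h1 : g * z * g⁻¹ ∈ (Zd Q : Subgroup G) := (mem_normalizer_iff.mp hk z).mp h2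
    rw [show Zd Q = zpowers z from hZ] at h1
    exact hynotin h1
  have hZg : Cj g (Zd Q) ≤ Q := by
    change ((center ↥Q).map Q.subtype).map (MulAut.conj g).toMonoidHom ≤ Q
    rw [hZ, Subgroup.map_le_iff_le_comap, zpowers_le]
    exact hyQ
  have hzQ' : z ∈ cj g Q := by
    have h1 := (Cfsg.Agent.Lib.LargeX.weakly_not_closed hQ hL2 hL3 g hg' hZg).1
    exact h1 ((show Zd Q = zpowers z from hZ).symm ▸ mem_zpowers z)
  have E' : ES (cj g Q) y := Cfsg.Agent.Lib.LargeX.es_conj E g
  have hty : t * y = y * t := E'.z_central t htQ2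
  have htzc : t * z = z * t := hzc t htQ1
  have hyzc : y * z = z * y := hzc y hyQ
  -- `t z` is not a conjugate of `z`
  have htzQ : t * z ∈ Q := Q.mul_mem htQ1 hzQ
  have key : ∀ h, h * z * h⁻¹ ≠ t * z := by
    intro h e
    have h1 : t * z ≠ 1 := by
      intro e1
      apply htne
      calc t = (t * z) * z := by rw [mul_assoc, hzz, mul_one]
        _ = z := by rw [e1, one_mul]
    have h2 : t * z ≠ z := by
      intro e1
      exact ht1 (mul_right_cancel (e1.trans (one_mul z).symm))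
    obtain ⟨b, hb, hbne⟩ := ES'.exists_noncomm E htzQ h1 h2
    have h3 := ES'.conj_eq E hb htzQ hbne
    apply htz
    rw [isConj_iff]
    refine ⟨b * h, ?_⟩
    calc b * h * z * (b * h)⁻¹ = b * (h * z * h⁻¹) * b⁻¹ := by group
      _ = z * (t * z) := by rw [e, h3]
      _ = t * (z * z) := by rw [← mul_assoc, ← htzc]; group
      _ = t := by rw [hzz, mul_one]
  have hyt : y ≠ t := by
    intro e
    apply htz
    rw [isConj_iff]
    exact ⟨g, e⟩
  have hytz : y ≠ t * z := key g
  -- the subgroups `A` and `A'`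
  have hA : Subgroup.closure ({t, z} : Set G) ≤ Q := by
    rw [Subgroup.closure_le]
    rintro _ (rfl | rfl)
    · exact htQ1
    · exact hzQ
  have hzA : z ∈ Subgroup.closure ({t, z} : Set G) := Subgroup.subset_closure (by simp)
  have htA : t ∈ Subgroup.closure ({t, z} : Set G) := Subgroup.subset_closure (by simp)
  have hyA : y ∉ Subgroup.closure ({t, z} : Set G) := by
    intro h1
    rcases mem_closure_pair_cases htt hzz htzc h1 with e | e | e | e
    · exact hy1 e
    · exact hyt e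
    · exact hyz e
    · exact hytz e
  obtain ⟨q, hqQ, hqA, hqe⟩ := ES'.exists_of_not_mem E hA hzA hyQ hyA
  have hA' : Subgroup.closure ({t, y} : Set G) ≤ cj g Q := by
    rw [Subgroup.closure_le]
    rintro _ (rfl | rfl)
    · exact htQ2
    · exact E'.z_mem
  have hyA' : y ∈ Subgroup.closure ({t, y} : Set G) := Subgroup.subset_closure (by simp)
  have htA' : t ∈ Subgroup.closure ({t, y} : Set G) := Subgroup.subset_closure (by simp)
  have hzA' : z ∉ Subgroup.closure ({t, y} : Set G) := by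
    intro h1
    rcases mem_closure_pair_cases htt hyy hty h1 with e | e | e | e
    · exact hz1 e
    · exact htne e.symm
    · exact hyz e.symm
    · apply hytz
      rw [e, ← mul_assoc, htt, one_mul]
  obtain ⟨q', hq'Q, hq'A, hq'e⟩ := ES'.exists_of_not_mem E' hA' hyA' hzQ' hzA'
  have hqt : q * t = t * q := hqA t htA
  have hq't : q' * t = t * q' := hq'A t htA'
  have hq'y : q' * y = y * q' := hq'A y hyA'
  -- the element `x`
  have hqy : q * y * q⁻¹ = z * y := by
    have h1 : y * q * y⁻¹ = z * q := hqe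
    have hyinv : y⁻¹ = y := inv_eq_of_mul_eq_one_left hyy
    have hzinv : z⁻¹ = z := inv_eq_of_mul_eq_one_left hzz
    have hzq : z * q = q * z := (hzc q hqQ).symm
    have h2 : y * q = z * q * y := by
      rw [← h1]
      group
    calc q * y * q⁻¹ = (z * z) * (q * y) * q⁻¹ := by rw [hzz, one_mul]
      _ = z * (z * q * y) * q⁻¹ := by group
      _ = z * (y * q) * q⁻¹ := by rw [h2]
      _ = z * y := by group
  have hq'z : q'⁻¹ * z * q' = y * z := by
    have h1 : z * q' * z⁻¹ = y * q' := hq'e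
    have hzinv : z⁻¹ = z := inv_eq_of_mul_eq_one_left hzz
    rw [hzinv] at h1
    have h2 : q'⁻¹ * y * q' = y := by
      rw [mul_assoc, ← hq'y]
      group
    have h3 : z * q' = y * q' * z := by
      rw [← h1]
      calc z * q' = z * q' * z * z := by rw [mul_assoc (z * q'), hzz, mul_one]
        _ = _ := rfl
    calc q'⁻¹ * z * q' = q'⁻¹ * (z * q') := by group
      _ = q'⁻¹ * (y * q' * z) := by rw [h3]
      _ = (q'⁻¹ * y * q') * z := by group
      _ = y * z := by rw [h2]
  have hxconj : (q'⁻¹ * q) * y * (q'⁻¹ * q)⁻¹ = z := by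
    have h2 : q'⁻¹ * y * q' = y := by
      rw [mul_assoc, ← hq'y]
      group
    calc (q'⁻¹ * q) * y * (q'⁻¹ * q)⁻¹ = q'⁻¹ * (q * y * q⁻¹) * q' := by group
      _ = q'⁻¹ * (z * y) * q' := by rw [hqy]
      _ = (q'⁻¹ * z * q') * (q'⁻¹ * y * q') := by group
      _ = y * z * y := by rw [hq'z, h2]
      _ = z * (y * y) := by rw [hyzc]; group
      _ = z := by rw [hyy, mul_one]
  subst hP
  have hqP : q ∈ Q ⊓ centralizer ({t} : Set G) := ⟨hqQ, mem_centralizer_singleton_iff.mpr hqt⟩
  have hq'P : q' ∈ cj g Q ⊓ centralizer ({t} : Set G) :=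
    ⟨hq'Q, mem_centralizer_singleton_iff.mpr hq't⟩
  have hxmem : q'⁻¹ * q ∈ (Q ⊓ centralizer ({t} : Set G)) ⊔ (cj g Q ⊓ centralizer ({t} : Set G)) :=
    mul_mem (mem_sup_right (inv_mem hq'P)) (mem_sup_left hqP)
  refine ⟨?_, q'⁻¹ * q, hxmem, hxconj⟩
  have hNcases : ∀ a, a ∈ zpowers t → a = 1 ∨ a = t := fun a ha => zpowers_two_cases htt ha
  have hzN : z ∉ zpowers t := by
    intro h1
    rcases hNcases z h1 with e | e
    · exact hz1 e
    · exact htne e.symm
  -- elements with `[c, z] ∈ ⟨t⟩` centralize `z`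
  have hcz : ∀ c, c * z * c⁻¹ * z⁻¹ ∈ zpowers t → c * z = z * c := by
    intro c hc
    rcases hNcases _ hc with e | e
    · calc c * z = (c * z * c⁻¹ * z⁻¹) * (z * c) := by group
        _ = z * c := by rw [e, one_mul]
    · exfalso
      apply key c
      calc c * z * c⁻¹ = (c * z * c⁻¹ * z⁻¹) * z := by group
        _ = t * z := by rw [e]
  refine bar_large (y := y) (x := q'⁻¹ * q) inf_le_right ⟨hzQ, mem_centralizer_singleton_iff.mpr htzc.symm⟩
    hzN hzz (fun q hq => hzc q hq.1) (fun a ha b hb => E.comm a ha.1 b hb.1) (fun a ha => E.sq a ha.1)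
    ?_ ?_ ?_ ⟨hyQ, mem_centralizer_singleton_iff.mpr hty.symm⟩ ?_ ?_ hxconj ?_
  · -- `hB2`
    intro c hcC hc
    have hzP : z ∈ Q ⊓ centralizer ({t} : Set G) := ⟨hzQ, mem_centralizer_singleton_iff.mpr htzc.symm⟩
    have h1 := hcz c (hc z hzP)
    have hct : c * t = t * c := mem_centralizer_singleton_iff.mp hcC
    have hcQ : c ∈ Q := by
      apply (hCP c (mem_centralizer_singleton_iff.mpr h1)).mp
      intro x hx
      have h2 := hc x hx
      have hxt : x * t = t * x := mem_centralizer_singleton_iff.mp hx.2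
      refine ⟨x⁻¹ * (c * x * c⁻¹), ?_, by group⟩
      have h3 : x⁻¹ * (c * x * c⁻¹) = x⁻¹ * (c * x * c⁻¹ * x⁻¹) * x := by group
      rw [h3]
      rcases hNcases _ h2 with e | e
      · rw [e]
        simp
      · rw [e]
        have e2 : x⁻¹ * t * x = t := by
          rw [mul_assoc, ← hxt]
          group
        rw [e2]
        exact htA
    have hcomm : ∀ d ∈ Q ⊓ centralizer ({t} : Set G), c * d = d * c := by
      intro d hd
      have h2 := hc d hd
      rcases E.comm c hcQ d hd.1 with e | e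
      · calc c * d = (c * d * c⁻¹ * d⁻¹) * (d * c) := by group
          _ = d * c := by rw [e, one_mul]
      · exfalso
        rw [e] at h2
        exact hzN h2
    have hcA : c ∈ Subgroup.closure ({t, z} : Set G) := by
      apply ES'.dc E hA hzA hcQ
      intro d hdQ hd
      exact hcomm d ⟨hdQ, mem_centralizer_singleton_iff.mpr (hd t htA)⟩
    rcases mem_closure_pair_cases htt hzz htzc hcA with e | e | e | e
    · left
      rw [e]
      exact one_mem _
    · left
      rw [e]
      exact mem_zpowers t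
    · right
      rw [e, hzz]
      exact one_mem _
    · right
      rw [e, mul_assoc, hzz, mul_one]
      exact mem_zpowers t
  · -- `hB3`
    intro c hcC hc p hp
    have h1 := hcz c hc
    have hct : c * t = t * c := mem_centralizer_singleton_iff.mp hcC
    have hpt : p * t = t * p := mem_centralizer_singleton_iff.mp hp.2
    refine ⟨c * p * c⁻¹, ⟨hnorm c h1 p hp.1, ?_⟩, ?_⟩
    · exact Subgroup.mul_mem _ (Subgroup.mul_mem _ hcC hp.2) (Subgroup.inv_mem _ hcC)
    · have : c * p * c⁻¹ * (c * p * c⁻¹)⁻¹ = 1 := by group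
      rw [this]
      exact one_mem _
  · have hle : (Q ⊓ centralizer ({t} : Set G)) ⊔ (cj g Q ⊓ centralizer ({t} : Set G)) ≤ centralizer ({t} : Set G) :=
      sup_le inf_le_right inf_le_right
    exact hle hxmem
  · intro h1
    rcases hNcases _ h1 with e | e
    · exact hy1 e
    · exact hyt e
  · intro h1
    rcases hNcases _ h1 with e | e
    · apply hyz
      calc y = y * (z * z) := by rw [hzz, mul_one]
        _ = (y * z) * z := by group
        _ = z := by rw [e, one_mul]
    · apply hytz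
      calc y = y * (z * z) := by rw [hzz, mul_one]
        _ = (y * z) * z := by group
        _ = t * z := by rw [e]
  · refine ⟨q, hqP, y, ⟨hyQ, mem_centralizer_singleton_iff.mpr hty.symm⟩, ?_⟩
    have e : q * y * q⁻¹ * y⁻¹ = z := by
      rw [hqy]
      group
    rw [e]
    exact hzN

/-- A group of order twice an odd number with a central involution: everything lies in a given
subgroup containing the odd core, up to the involution. -/
theorem central_split {T : Type*} [Group T] [Finite T] {z : T} (hz : z ∈ center T) (hzz : z * z = 1)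
    (hz1 : z ≠ 1) (h4 : ¬ 4 ∣ Nat.card T) (d : T) : ∃ k ∈ pPrimeCore 2 T, d = k ∨ d = z * k := by
  classical
  haveI : Fact (Nat.Prime 2) := ⟨Nat.prime_two⟩
  have hNn : (zpowers z).Normal := by
    constructor
    intro n hn g
    have h1 : n ∈ center T := (zpowers_le.mpr hz) hn
    have e : g * n * g⁻¹ = n := by
      rw [mem_center_iff.mp h1 g]
      group
    rw [e]
    exact hn
  have hcard : Nat.card (zpowers z) = 2 := by
    rw [Nat.card_zpowers]
    exact orderOf_eq_prime (by rw [pow_two]; exact hzz) hz1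
  have hmul := Subgroup.card_mul_index (zpowers z)
  rw [hcard] at hmul
  have hidx : Odd (zpowers z).index := by
    rw [← Nat.not_even_iff_odd]
    rintro ⟨m, hm⟩
    apply h4
    rw [← hmul, hm]
    exact ⟨m, by ring⟩
  have hcop : Nat.Coprime (Nat.card (zpowers z)) (zpowers z).index := by
    rw [hcard]
    exact (Nat.coprime_two_left).mpr hidx
  obtain ⟨K, hK⟩ := Subgroup.exists_right_complement'_of_coprime hcop
  have hKcard : Nat.card K = (zpowers z).index := by
    have h1 := hK.card_mul_card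
    rw [hcard] at h1
    omega
  have hsup : zpowers z ⊔ K = ⊤ := hK.sup_eq_top
  have hcomm : ∀ a ∈ zpowers z, ∀ b ∈ K, a * b = b * a := by
    intro a ha b _
    have : a ∈ center T := (zpowers_le.mpr hz) ha
    exact (mem_center_iff.mp this b).symm
  have hKn : K.Normal := by
    constructor
    intro k hk t
    have ht : t ∈ zpowers z ⊔ K := by
      rw [hsup]
      trivial
    obtain ⟨a, ha, b, hb, rfl⟩ := exists_mul_of_mem_sup_of_commutes hcomm ht
    have hac : a ∈ center T := (zpowers_le.mpr hz) ha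
    have e : a * b * k * (a * b)⁻¹ = b * k * b⁻¹ := by
      have h1 : ∀ w, a * w = w * a := fun w => (mem_center_iff.mp hac w).symm
      calc a * b * k * (a * b)⁻¹ = a * (b * k * b⁻¹) * a⁻¹ := by group
        _ = (b * k * b⁻¹) * a * a⁻¹ := by rw [h1]
        _ = b * k * b⁻¹ := by group
    rw [e]
    exact K.mul_mem (K.mul_mem hb hk) (K.inv_mem hb)
  have hKO : K ≤ pPrimeCore 2 T := by
    apply le_pPrimeCore hKn
    rw [hKcard]
    exact (Nat.coprime_two_right).mpr hidx
  have hd : d ∈ zpowers z ⊔ K := by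
    rw [hsup]
    trivial
  obtain ⟨a, ha, b, hb, rfl⟩ := exists_mul_of_mem_sup_of_commutes hcomm hd
  refine ⟨b, hKO hb, ?_⟩
  rcases zpowers_two_cases hzz ha with rfl | rfl
  · left
    simp
  · right
    rfl

/-- **S5428**. -/
theorem s5428 (z : G) (hz : orderOf z = 2) (Q : Subgroup G) (hQC : Q ≤ centralizer ({z} : Set G))
    (hF : (generalizedFittingSubgroup ↥(centralizer ({z} : Set G))).map (centralizer ({z} : Set G)).subtype = Q)
    (hQ : IsExtraspecial 2 ↥Q) (A : Subgroup G) (hA : A ≤ centralizer ({z} : Set G))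
    (hAodd : Odd (Nat.card ↥A)) (R : Subgroup G) (hR : R = Q ⊓ centralizer (A : Set G))
    (hO : (oddCore ↥(centralizer ((A ⊔ R : Subgroup G) : Set G))).map
      (centralizer ((A ⊔ R : Subgroup G) : Set G)).subtype ≤ A)
    (h4 : ¬ 4 ∣ Nat.card ↥(centralizer ((A ⊔ R : Subgroup G) : Set G))) (g : G) (hgR : g * z * g⁻¹ ∈ R)
    (hgZ : g * z * g⁻¹ ∉ ((center ↥Q).map Q.subtype)) (M : Subgroup G)
    (hM : M = centralizer (A : Set G) ⊔ A) [hn : (A.subgroupOf M).Normal] :
    (M ⊓ centralizer ((R ⊔ A : Subgroup G) : Set G)) ⊔ A = A ⊔ ((center ↥Q).map Q.subtype) ∧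
    IsLargeExtraspecial ((R.subgroupOf M).map (QuotientGroup.mk' (A.subgroupOf M))) ∧
    ∃ x ∈ R ⊔ ((Q).map (MulAut.conj g).toMonoidHom ⊓ centralizer (A : Set G)),
      x * (g * z * g⁻¹) * x⁻¹ = z := by
  classical
  haveI : Fact (Nat.Prime 2) := ⟨Nat.prime_two⟩
  obtain ⟨hzQ, hZ, hL2, hL3⟩ := setting_of_gfit hz hQC hF hQ
  have hzz : z * z = 1 := by
    have := pow_orderOf_eq_one z
    rw [hz, pow_two] at this
    exact this
  have hz1 : z ≠ 1 := by
    rintro rfl
    simp at hz
  have hzc : ∀ q ∈ Q, q * z = z * q := fun q hq => mem_centralizer_singleton_iff.mp (hQC hq)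
  have E : ES Q z := ES'.of_extraspecial hQ hzQ hz1 hzc
  have hnorm : ∀ c, c * z = z * c → ∀ q ∈ Q, c * q * c⁻¹ ∈ Q := by
    intro c hc q hq
    have h1 : c ∈ centralizer (((center ↥Q).map Q.subtype : Subgroup G) : Set G) := by
      rw [hZ, mem_centralizer_iff]
      intro h hh
      rcases zpowers_two_cases hzz hh with rfl | rfl
      · simp
      · exact hc.symm
    exact (mem_normalizer_iff.mp (hL3 h1) q).mp hq
  subst hR
  have hAz : ∀ a ∈ A, a * z = z * a := fun a ha => mem_centralizer_singleton_iff.mp (hA ha)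
  have hQ2 : IsPGroup 2 Q := hQ.1.1
  have hAQ : ∀ x, x ∈ A → x ∈ Q → x = 1 := fun x hx hx' => Cfsg.Agent.S5421.elt_trivial A Q hAodd hQ2 hx hx'
  have hAn : A ≤ normalizer (Q : Set G) := fun a ha => mem_norm_of_map_le (hnorm a (hAz a ha))
  have hRcen := coprime_center E hAn hAodd
  set y := g * z * g⁻¹ with hy
  have hyy : y * y = 1 := by
    have e : g * z * g⁻¹ * (g * z * g⁻¹) = g * (z * z) * g⁻¹ := by group
    rw [hy, e, hzz]
    group
  have hynotin : y ∉ zpowers z := by
    rw [← hZ]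
    exact hgZ
  have hy1 : y ≠ 1 := fun e => hynotin (e ▸ one_mem _)
  have hyz : y ≠ z := fun e => hynotin (e ▸ mem_zpowers z)
  have hyQ : y ∈ Q := hgR.1
  have hyA : ∀ a ∈ A, a * y = y * a := fun a ha => (mem_centralizer_iff.mp hgR.2 a ha)
  have hg' : g ∉ normalizer ((Zd Q : Subgroup G) : Set G) := by
    intro hk
    have h2 : z ∈ (Zd Q : Subgroup G) := by
      rw [show Zd Q = zpowers z from hZ]
      exact mem_zpowers z
    have h1 : g * z * g⁻¹ ∈ (Zd Q : Subgroup G) := (mem_normalizer_iff.mp hk z).mp h2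
    rw [show Zd Q = zpowers z from hZ] at h1
    exact hynotin h1
  have hZg : Cj g (Zd Q) ≤ Q := by
    change ((center ↥Q).map Q.subtype).map (MulAut.conj g).toMonoidHom ≤ Q
    rw [hZ, Subgroup.map_le_iff_le_comap, zpowers_le]
    exact hyQ
  have hzQ' : z ∈ cj g Q := by
    have h1 := (Cfsg.Agent.Lib.LargeX.weakly_not_closed hQ hL2 hL3 g hg' hZg).1
    exact h1 ((show Zd Q = zpowers z from hZ).symm ▸ mem_zpowers z)
  have E' : ES (cj g Q) y := Cfsg.Agent.Lib.LargeX.es_conj E g
  have hyzc : y * z = z * y := hzc y hyQ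
  have hAn' : A ≤ normalizer ((cj g Q : Subgroup G) : Set G) := by
    intro a ha
    apply mem_norm_of_map_le
    intro q hq
    rw [mem_cj] at hq ⊢
    have h1 : (g⁻¹ * a * g) * z = z * (g⁻¹ * a * g) := by
      have h2 := hyA a ha
      have h3 : a * (g * z * g⁻¹) = (g * z * g⁻¹) * a := h2
      calc (g⁻¹ * a * g) * z = g⁻¹ * (a * (g * z * g⁻¹)) * g := by group
        _ = g⁻¹ * ((g * z * g⁻¹) * a) * g := by rw [h3]
        _ = z * (g⁻¹ * a * g) := by group
    have h2 := hnorm _ h1 _ hq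
    have e : g⁻¹ * (a * q * a⁻¹) * g = g⁻¹ * a * g * (g⁻¹ * q * g) * (g⁻¹ * a * g)⁻¹ := by group
    rw [e]
    exact h2
  have hR'cen := coprime_center E' hAn' hAodd
  have hzCA : z ∈ centralizer (A : Set G) := by
    rw [mem_centralizer_iff]
    intro a ha
    exact hAz a ha
  -- non-commuting partners
  obtain ⟨s, hsR, hsy⟩ : ∃ s ∈ Q ⊓ centralizer (A : Set G), s * y ≠ y * s := by
    by_contra hcon
    push Not at hcon
    rcases hRcen y hgR hcon with e | e
    · exact hy1 e
    · exact hyz e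
  obtain ⟨s', hs'R, hs'z⟩ : ∃ s' ∈ cj g Q ⊓ centralizer (A : Set G), s' * z ≠ z * s' := by
    by_contra hcon
    push Not at hcon
    rcases hR'cen z ⟨hzQ', hzCA⟩ hcon with e | e
    · exact hz1 e
    · exact hyz e.symm
  have h1 : s * y * s⁻¹ = z * y := ES'.conj_eq E hsR.1 hyQ hsy
  have h2 : s' * z * s'⁻¹ = y * z := ES'.conj_eq E' hs'R.1 hzQ' hs'z
  have hs'y : s' * y = y * s' := E'.z_central s' hs'R.1
  have h3 : s'⁻¹ * y * s' = y := by
    rw [mul_assoc, ← hs'y]
    group
  have h4' : s'⁻¹ * z * s' = y * z := by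
    have e0 : z = s'⁻¹ * (y * z) * s' := by
      rw [← h2]
      group
    calc s'⁻¹ * z * s' = (y * y) * (s'⁻¹ * z * s') := by rw [hyy, one_mul]
      _ = y * ((s'⁻¹ * y * s') * (s'⁻¹ * z * s')) := by rw [h3]; group
      _ = y * (s'⁻¹ * (y * z) * s') := by group
      _ = y * z := by rw [← e0]
  have hxconj : (s'⁻¹ * s) * y * (s'⁻¹ * s)⁻¹ = z := by
    calc (s'⁻¹ * s) * y * (s'⁻¹ * s)⁻¹ = s'⁻¹ * (s * y * s⁻¹) * s' := by group
      _ = s'⁻¹ * (z * y) * s' := by rw [h1]
      _ = (s'⁻¹ * z * s') * (s'⁻¹ * y * s') := by group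
      _ = y * z * y := by rw [h4', h3]
      _ = z * (y * y) := by rw [hyzc]; group
      _ = z := by rw [hyy, mul_one]
  have hxmem : s'⁻¹ * s ∈ (Q ⊓ centralizer (A : Set G)) ⊔ (cj g Q ⊓ centralizer (A : Set G)) :=
    mul_mem (mem_sup_right (inv_mem hs'R)) (mem_sup_left hsR)
  -- elements of the centralizer of `A ⊔ R`
  have hmemD : ∀ c, c ∈ centralizer (A : Set G) → (∀ r ∈ Q ⊓ centralizer (A : Set G), r * c = c * r) →
      c ∈ centralizer ((A ⊔ (Q ⊓ centralizer (A : Set G)) : Subgroup G) : Set G) := by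
    intro c hcA hcR
    rw [mem_centralizer_iff]
    intro h hh
    have hle : A ⊔ (Q ⊓ centralizer (A : Set G)) ≤ centralizer ({c} : Set G) := by
      apply sup_le
      · intro a ha
        rw [mem_centralizer_singleton_iff]
        exact (mem_centralizer_iff.mp hcA a ha)
      · intro r hr
        rw [mem_centralizer_singleton_iff]
        exact hcR r hr
    exact mem_centralizer_singleton_iff.mp (hle hh)
  have hD : ∀ d ∈ centralizer ((A ⊔ (Q ⊓ centralizer (A : Set G)) : Subgroup G) : Set G),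
      d ∈ A ∨ d * z ∈ A := by
    intro d hd
    have hzD := hmemD z hzCA (fun r hr => hzc r hr.1)
    let T := centralizer ((A ⊔ (Q ⊓ centralizer (A : Set G)) : Subgroup G) : Set G)
    let z' : T := ⟨z, hzD⟩
    have hz'c : z' ∈ center T := by
      rw [mem_center_iff]
      rintro ⟨t, ht⟩
      apply Subtype.ext
      exact (mem_centralizer_iff.mp ht z (mem_sup_right ⟨hzQ, hzCA⟩)).symm
    obtain ⟨k, hk, e⟩ := central_split hz'c (Subtype.ext hzz) (fun e => hz1 (congrArg Subtype.val e)) h4 ⟨d, hd⟩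
    have hkA : (k : G) ∈ A := hO ⟨k, hk, rfl⟩
    rcases e with e | e
    · left
      have : d = k := congrArg Subtype.val e
      rw [this]
      exact hkA
    · right
      have : d = z * k := congrArg Subtype.val e
      have hkz := hAz k hkA
      have e2 : z * (k : G) * z = k := by
        calc z * (k : G) * z = z * (k * z) := by group
          _ = z * (z * k) := by rw [hkz]
          _ = k := by rw [← mul_assoc, hzz, one_mul]
      rw [this, e2]
      exact hkA
  have hzrel : ∀ c₀, c₀ * z * c₀⁻¹ * z⁻¹ ∈ A → c₀ * z = z * c₀ := by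
    intro c₀ hc₀
    set α := c₀ * z * c₀⁻¹ * z⁻¹ with hα
    have hα2 : α * z = z * α := hAz α hc₀
    have hzinv : z⁻¹ = z := inv_eq_of_mul_eq_one_left hzz
    have e1 : c₀ * z * c₀⁻¹ = α * z := by
      rw [hα]
      group
    have e2 : (c₀ * z * c₀⁻¹) * (c₀ * z * c₀⁻¹) = 1 := by
      have : (c₀ * z * c₀⁻¹) * (c₀ * z * c₀⁻¹) = c₀ * (z * z) * c₀⁻¹ := by group
      rw [this, hzz]
      group
    rw [e1] at e2
    have e3 : α * α = 1 := by
      calc α * α = α * α * (z * z) := by rw [hzz, mul_one]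
        _ = α * (α * z) * z := by group
        _ = α * (z * α) * z := by rw [hα2]
        _ = (α * z) * (α * z) := by group
        _ = 1 := e2
    have e4 : α = 1 := by
      have h5 : α ^ 2 = 1 := by rw [pow_two]; exact e3
      have h6 : α ^ Nat.card A = 1 := by
        have h3 : ((⟨α, hc₀⟩ : A) ^ Nat.card A : A) = 1 := pow_card_eq_one'
        have h4 := congrArg Subtype.val h3
        rw [Subgroup.coe_pow] at h4
        exact h4
      have hc : Nat.Coprime 2 (Nat.card A) := (Nat.coprime_two_left).mpr hAodd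
      have := (pow_gcd_eq_one (a := α)).mpr ⟨h5, h6⟩
      rwa [hc.gcd_eq_one, pow_one] at this
    rw [e4] at e1
    calc c₀ * z = (c₀ * z * c₀⁻¹) * c₀ := by group
      _ = z * c₀ := by rw [e1, one_mul]
  have hCAA : ∀ c ∈ centralizer (A : Set G), ∀ a ∈ A, c * a = a * c := fun c hc a ha =>
    (mem_centralizer_iff.mp hc a ha).symm
  have hsplit : ∀ c ∈ M, ∃ c₀ ∈ centralizer (A : Set G), ∃ a ∈ A, c = c₀ * a := by
    intro c hc
    rw [hM] at hc
    exact exists_mul_of_mem_sup_of_commutes hCAA hc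
  have hRM : Q ⊓ centralizer (A : Set G) ≤ M := by
    rw [hM]
    exact inf_le_right.trans le_sup_left
  refine ⟨?_, ?_, s'⁻¹ * s, hxmem, hxconj⟩
  · rw [hZ, sup_comm (Q ⊓ centralizer (A : Set G)) A]
    apply le_antisymm
    · refine sup_le ?_ le_sup_left
      rintro x ⟨-, hx⟩
      rcases hD x hx with e | e
      · exact mem_sup_left e
      · have h5 : x = (x * z) * z := by
          rw [mul_assoc, hzz, mul_one]
        rw [h5]
        exact mul_mem (mem_sup_left e) (mem_sup_right (mem_zpowers z))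
    · refine sup_le le_sup_right ?_
      rw [zpowers_le]
      apply mem_sup_left
      refine ⟨?_, hmemD z hzCA (fun r hr => hzc r hr.1)⟩
      rw [hM]
      exact mem_sup_left hzCA
  · refine bar_large (y := y) (x := s'⁻¹ * s) hRM ⟨hzQ, hzCA⟩ (fun h => hz1 (hAQ z h hzQ)) hzz
      (fun q hq => hzc q hq.1) (fun a ha b hb => E.comm a ha.1 b hb.1) (fun a ha => E.sq a ha.1)
      ?_ ?_ ?_ hgR (fun h => hy1 (hAQ y h hyQ)) ?_ hxconj ?_
    · -- `hB2`
      intro c hcM hc
      obtain ⟨c₀, hc₀, a, ha, rfl⟩ := hsplit c hcM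
      have hq : ∀ q ∈ Q ⊓ centralizer (A : Set G), c₀ * a * q * (c₀ * a)⁻¹ * q⁻¹ = c₀ * q * c₀⁻¹ * q⁻¹ := by
        intro q hq
        have h5 : a * q = q * a := (mem_centralizer_iff.mp hq.2 a ha)
        calc c₀ * a * q * (c₀ * a)⁻¹ * q⁻¹ = c₀ * (a * q) * a⁻¹ * c₀⁻¹ * q⁻¹ := by group
          _ = c₀ * (q * a) * a⁻¹ * c₀⁻¹ * q⁻¹ := by rw [h5]
          _ = c₀ * q * c₀⁻¹ * q⁻¹ := by group
      have hc₀z : c₀ * z = z * c₀ := by
        apply hzrel
        rw [← hq z ⟨hzQ, hzCA⟩]
        exact hc z ⟨hzQ, hzCA⟩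
      have hc₀R : ∀ r ∈ Q ⊓ centralizer (A : Set G), r * c₀ = c₀ * r := by
        intro r hr
        have h5 := hc r hr
        rw [hq r hr] at h5
        have h6 : c₀ * r * c₀⁻¹ * r⁻¹ ∈ Q := Q.mul_mem (hnorm c₀ hc₀z r hr.1) (Q.inv_mem hr.1)
        have h7 := hAQ _ h5 h6
        calc r * c₀ = (c₀ * r * c₀⁻¹ * r⁻¹)⁻¹ * (c₀ * r) := by group
          _ = c₀ * r := by rw [h7]; group
      rcases hD c₀ (hmemD c₀ hc₀ hc₀R) with e | e
      · left
        exact A.mul_mem e ha
      · right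
        have h5 : c₀ * a * z = (c₀ * z) * a := by
          have := hAz a ha
          calc c₀ * a * z = c₀ * (a * z) := by group
            _ = c₀ * (z * a) := by rw [this]
            _ = (c₀ * z) * a := by group
        rw [h5]
        exact A.mul_mem e ha
    · -- `hB3`
      intro c hcM hc q hq
      obtain ⟨c₀, hc₀, a, ha, rfl⟩ := hsplit c hcM
      have h5 : a * q = q * a := (mem_centralizer_iff.mp hq.2 a ha)
      have h6 : a * z = z * a := hAz a ha
      have hc₀z : c₀ * z = z * c₀ := by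
        apply hzrel
        have e : c₀ * a * z * (c₀ * a)⁻¹ * z⁻¹ = c₀ * z * c₀⁻¹ * z⁻¹ := by
          calc c₀ * a * z * (c₀ * a)⁻¹ * z⁻¹ = c₀ * (a * z) * a⁻¹ * c₀⁻¹ * z⁻¹ := by group
            _ = c₀ * (z * a) * a⁻¹ * c₀⁻¹ * z⁻¹ := by rw [h6]
            _ = c₀ * z * c₀⁻¹ * z⁻¹ := by group
        rw [← e]
        exact hc
      refine ⟨c₀ * q * c₀⁻¹, ⟨hnorm c₀ hc₀z q hq.1, ?_⟩, ?_⟩
      · exact Subgroup.mul_mem _ (Subgroup.mul_mem _ hc₀ hq.2) (Subgroup.inv_mem _ hc₀)
      · have e : c₀ * a * q * (c₀ * a)⁻¹ * (c₀ * q * c₀⁻¹)⁻¹ = 1 := by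
          calc c₀ * a * q * (c₀ * a)⁻¹ * (c₀ * q * c₀⁻¹)⁻¹
              = c₀ * (a * q) * a⁻¹ * c₀⁻¹ * (c₀ * q * c₀⁻¹)⁻¹ := by group
            _ = c₀ * (q * a) * a⁻¹ * c₀⁻¹ * (c₀ * q * c₀⁻¹)⁻¹ := by rw [h5]
            _ = 1 := by group
        rw [e]
        exact one_mem _
    · have hle : (Q ⊓ centralizer (A : Set G)) ⊔ (cj g Q ⊓ centralizer (A : Set G)) ≤ M := by
        rw [hM]
        exact sup_le (inf_le_right.trans le_sup_left) (inf_le_right.trans le_sup_left)
      exact hle hxmem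
    · intro h5
      have := hAQ _ h5 (Q.mul_mem hyQ hzQ)
      apply hyz
      calc y = y * (z * z) := by rw [hzz, mul_one]
        _ = (y * z) * z := by group
        _ = z := by rw [this, one_mul]
    · refine ⟨s, hsR, y, hgR, ?_⟩
      have e : s * y * s⁻¹ * y⁻¹ = z := by
        rw [h1]
        group
      rw [e]
      exact fun h => hz1 (hAQ z h hzQ)

end Cfsg.Agent.Lib.LargeX.SS
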