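/-
Two orthogonal conjugates of the central involution: the structure of `R` (helper18).
-/
import Cfsg.Agent.Lib.LargeX.ToExtra

set_option autoImplicit false

namespace Cfsg.Agent.Lib.LargeX

open Subgroup Cfsg Cfsg.Agent.Lib.TwoFusion

open scoped commutatorElement

variable {G : Type*} [Group G]

/-- An element acting on a self-centralizing extraspecial subgroup with displacement in the centre lies in it. -/
theorem mem_of_disp [Finite G] {Q : Subgroup G} {z t : G} (E : ES Q z) (hself : ∀ c, (∀ a ∈ Q, c * a = a * c) → c ∈ Q)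
    (htz : t * z = z * t) (h : ∀ v ∈ Q, t * v * t⁻¹ = v ∨ t * v * t⁻¹ = v * z) : t ∈ Q := by
  by_cases hall : ∀ v ∈ Q, t * v * t⁻¹ = v
  · apply hself
    intro a ha
    calc t * a = (t * a * t⁻¹) * t := by group
      _ = a * t := by rw [hall a ha]
  · push Not at hall
    obtain ⟨a, ha, hna⟩ := hall
    have ha1 : t * a * t⁻¹ = a * z := (h a ha).resolve_left hna
    let T : Subgroup G := Q ⊓ centralizer ({t} : Set G)
    have hTQ : T ≤ Q := inf_le_left
    have hmemT : ∀ s, s ∈ Q → t * s * t⁻¹ = s → s ∈ T := by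
      intro s hs e
      refine Subgroup.mem_inf.mpr ⟨hs, Subgroup.mem_centralizer_singleton_iff.mpr ?_⟩
      calc s * t = (t * s * t⁻¹) * t := by rw [e]
        _ = t * s := by group
    have hzT : z ∈ T := hmemT z E.z_mem (by
      rw [htz]
      group)
    have haT : a ∉ T := by
      intro hT
      apply hna
      have := Subgroup.mem_centralizer_singleton_iff.mp (Subgroup.mem_inf.mp hT).2
      rw [← this]
      group
    obtain ⟨p, hp, hpT, hap⟩ := ES'.exists_of_not_mem E hTQ hzT ha haT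
    have hp1 : p⁻¹ * a * p = z * a := by
      have e : a * p = z * (p * a) := by
        calc a * p = (a * p * a⁻¹) * a := by group
          _ = z * (p * a) := by rw [hap, mul_assoc]
      calc p⁻¹ * a * p = p⁻¹ * (a * p) := by group
        _ = p⁻¹ * (z * (p * a)) := by rw [e]
        _ = (p⁻¹ * z) * (p * a) := by group
        _ = (z * p⁻¹) * (p * a) := by rw [E.z_central _ (Q.inv_mem hp)]
        _ = z * a := by group
    have hi : t * p⁻¹ ∈ Q := by
      apply hself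
      intro v hv
      rcases h v hv with h1 | h1
      · have hvT := hmemT v hv h1
        have h2 := hpT v hvT
        have h3 : p⁻¹ * v = v * p⁻¹ := by
          calc p⁻¹ * v = p⁻¹ * (v * p) * p⁻¹ := by group
            _ = p⁻¹ * (p * v) * p⁻¹ := by rw [h2]
            _ = v * p⁻¹ := by group
        calc t * p⁻¹ * v = t * (p⁻¹ * v) := by group
          _ = t * (v * p⁻¹) := by rw [h3]
          _ = (t * v * t⁻¹) * t * p⁻¹ := by group
          _ = v * (t * p⁻¹) := by rw [h1, mul_assoc]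
      · have hatv : a⁻¹ * v ∈ Q := Q.mul_mem (Q.inv_mem ha) hv
        have hs : t * (a⁻¹ * v) * t⁻¹ = a⁻¹ * v := by
          calc t * (a⁻¹ * v) * t⁻¹ = (t * a * t⁻¹)⁻¹ * (t * v * t⁻¹) := by group
            _ = z⁻¹ * (a⁻¹ * v) * z := by rw [ha1, h1]; group
            _ = z⁻¹ * (z * (a⁻¹ * v)) := by rw [mul_assoc, E.z_central _ hatv]
            _ = a⁻¹ * v := by group
        have h2 := hpT _ (hmemT _ hatv hs)
        have h3 : p⁻¹ * v * p = z * v := by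
          have h4 : p⁻¹ * (a⁻¹ * v) = (a⁻¹ * v) * p⁻¹ := by
            calc p⁻¹ * (a⁻¹ * v) = p⁻¹ * ((a⁻¹ * v) * p) * p⁻¹ := by group
              _ = p⁻¹ * (p * (a⁻¹ * v)) * p⁻¹ := by rw [h2]
              _ = (a⁻¹ * v) * p⁻¹ := by group
          calc p⁻¹ * v * p = (p⁻¹ * a * p) * (p⁻¹ * (a⁻¹ * v)) * p := by group
            _ = (z * a) * ((a⁻¹ * v) * p⁻¹) * p := by rw [hp1, h4]
            _ = z * v := by group
        have h5 : t * (z * v) * t⁻¹ = v := by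
          calc t * (z * v) * t⁻¹ = (t * z) * v * t⁻¹ := by group
            _ = (z * t) * v * t⁻¹ := by rw [htz]
            _ = z * (t * v * t⁻¹) := by group
            _ = z * (v * z) := by rw [h1]
            _ = z * (z * v) := by rw [E.z_central v hv]
            _ = (z * z) * v := by group
            _ = v := by rw [E.z_sq, one_mul]
        calc t * p⁻¹ * v = t * (p⁻¹ * v * p) * p⁻¹ := by group
          _ = (t * (z * v) * t⁻¹) * t * p⁻¹ := by rw [h3]; group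
          _ = v * (t * p⁻¹) := by rw [h5, mul_assoc]
    have e : t = t * p⁻¹ * p := by group
    rw [e]
    exact Q.mul_mem hi hp

/-- Two orthogonal conjugates of the central involution. -/
structure Orth2 (Q P : Subgroup G) (z x : G) : Prop where
  esQ : ES Q z
  esP : ES P x
  selfQ : ∀ c, (∀ a ∈ Q, c * a = a * c) → c ∈ Q
  selfP : ∀ c, (∀ a ∈ P, c * a = a * c) → c ∈ P
  nQ : ∀ c, c * z = z * c → ∀ a ∈ Q, c * a * c⁻¹ ∈ Q
  nP : ∀ c, c * x = x * c → ∀ a ∈ P, c * a * c⁻¹ ∈ P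
  xQ : x ∈ Q
  zP : z ∈ P
  ne : x ≠ z
  conjQP : ∀ h, h * z * h⁻¹ = x → ∀ a ∈ Q, h * a * h⁻¹ ∈ P
  conjPQ : ∀ h, h * x * h⁻¹ = z → ∀ a ∈ P, h * a * h⁻¹ ∈ Q

namespace Orth2

variable {Q P : Subgroup G} {z x : G}

theorem swap (S : Orth2 Q P z x) : Orth2 P Q x z :=
  ⟨S.esP, S.esQ, S.selfP, S.selfQ, S.nP, S.nQ, S.zP, S.xQ, S.ne.symm, S.conjPQ, S.conjQP⟩

theorem zx (S : Orth2 Q P z x) : z * x = x * z := (S.esQ.z_central x S.xQ).symm

/-- The `z`-centralizer of `P`, etc. -/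
abbrev Qx (Q : Subgroup G) (x : G) : Subgroup G := Q ⊓ centralizer ({x} : Set G)

theorem mem_Qx {a : G} : a ∈ Qx Q x ↔ a ∈ Q ∧ a * x = x * a := by
  rw [Subgroup.mem_inf, Subgroup.mem_centralizer_singleton_iff]

/-- The intersection lies in the centralizer. -/
theorem inter_Qx (S : Orth2 Q P z x) {e : G} (h1 : e ∈ Q) (h2 : e ∈ P) : e ∈ Qx Q x :=
  mem_Qx.mpr ⟨h1, S.esP.z_central e h2⟩

theorem z_mem_Qx (S : Orth2 Q P z x) : z ∈ Qx Q x := mem_Qx.mpr ⟨S.esQ.z_mem, S.zx⟩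

theorem x_mem_Qx (S : Orth2 Q P z x) : x ∈ Qx Q x := mem_Qx.mpr ⟨S.xQ, rfl⟩

/-- The intersection of the centralizers is `E`. -/
theorem Qx_inf_Px (S : Orth2 Q P z x) : Qx P z ⊓ Qx Q x = Q ⊓ P := by
  apply le_antisymm
  · intro a ha
    have h := Subgroup.mem_inf.mp ha
    exact Subgroup.mem_inf.mpr ⟨(mem_Qx.mp h.2).1, (mem_Qx.mp h.1).1⟩
  · intro a ha
    have h := Subgroup.mem_inf.mp ha
    exact Subgroup.mem_inf.mpr ⟨S.swap.inter_Qx h.2 h.1, S.inter_Qx h.1 h.2⟩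

/-- A commutator of elements of `Q` is in `Q ⊓ P` if the second acts in `P`... -/
theorem comm_mem_inter (S : Orth2 Q P z x) {r t : G} (hr : r ∈ Qx Q x) (ht : t ∈ Qx P z) :
    r * t * r⁻¹ * t⁻¹ ∈ Q ⊓ P := by
  have hr' := mem_Qx.mp hr
  have ht' := mem_Qx.mp ht
  refine Subgroup.mem_inf.mpr ⟨?_, P.mul_mem (S.nP r hr'.2 t ht'.1) (P.inv_mem ht'.1)⟩
  have e : r * t * r⁻¹ * t⁻¹ = r * (t * r⁻¹ * t⁻¹) := by group
  rw [e]
  exact Q.mul_mem hr'.1 (S.nQ t ht'.2 _ (Q.inv_mem hr'.1))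

/-- `E` is elementary abelian. -/
theorem inter_comm (S : Orth2 Q P z x) {e f : G} (he : e ∈ Q ⊓ P) (hf : f ∈ Q ⊓ P) : e * f = f * e := by
  have he' := Subgroup.mem_inf.mp he
  have hf' := Subgroup.mem_inf.mp hf
  by_contra hne
  have h1 := ES'.comm_eq S.esQ he'.1 hf'.1 hne
  have h2 := ES'.comm_eq S.esP he'.2 hf'.2 hne
  exact S.ne (h2.symm.trans h1)

theorem inter_sq (S : Orth2 Q P z x) {e : G} (he : e ∈ Q ⊓ P) : e * e = 1 := by
  have he' := Subgroup.mem_inf.mp he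
  rcases S.esQ.sq e he'.1 with h | h
  · exact h
  rcases S.esP.sq e he'.2 with h2 | h2
  · exact h2
  · exact absurd (h2.symm.trans h) S.ne

/-- `z`, `x` lie in `E`. -/
theorem z_mem_inter (S : Orth2 Q P z x) : z ∈ Q ⊓ P := Subgroup.mem_inf.mpr ⟨S.esQ.z_mem, S.zP⟩

theorem x_mem_inter (S : Orth2 Q P z x) : x ∈ Q ⊓ P := Subgroup.mem_inf.mpr ⟨S.xQ, S.esP.z_mem⟩

/-- The join as a product. -/
theorem Qx_normalizes (S : Orth2 Q P z x) : Qx P z ≤ normalizer (Qx Q x : Set G) := by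
  intro t ht
  have ht' := mem_Qx.mp ht
  have hmap : ∀ s : G, s ∈ Qx P z → ∀ a ∈ Qx Q x, s * a * s⁻¹ ∈ Qx Q x := by
    intro s hs a ha
    have hs' := mem_Qx.mp hs
    have ha' := mem_Qx.mp ha
    refine mem_Qx.mpr ⟨S.nQ s hs'.2 a ha'.1, ?_⟩
    have h1 := S.esP.z_central s hs'.1
    calc s * a * s⁻¹ * x = s * a * (s⁻¹ * x) := by group
      _ = s * a * (x * s⁻¹) := by rw [S.esP.z_central _ (P.inv_mem hs'.1)]
      _ = s * (a * x) * s⁻¹ := by group
      _ = s * (x * a) * s⁻¹ := by rw [ha'.2]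
      _ = (s * x) * a * s⁻¹ := by group
      _ = (x * s) * a * s⁻¹ := by rw [h1]
      _ = x * (s * a * s⁻¹) := by group
  refine Subgroup.mem_normalizer_iff.mpr fun a => ⟨hmap t ht a, fun h => ?_⟩
  have h2 := hmap t⁻¹ (Subgroup.inv_mem _ ht) _ h
  have e : t⁻¹ * (t * a * t⁻¹) * t⁻¹⁻¹ = a := by group
  rwa [e] at h2

/-- Elements of `R` as products. -/
theorem mem_R (S : Orth2 Q P z x) {u : G} :
    u ∈ Qx Q x ⊔ Qx P z ↔ ∃ r ∈ Qx Q x, ∃ t ∈ Qx P z, u = r * t :=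
  Coprime.mem_sup_iff_of_le_normalizer S.Qx_normalizes u

/-- `E` is normalized by both factors. -/
theorem conj_inter (S : Orth2 Q P z x) {a e : G} (ha : a ∈ Q ∨ a ∈ P) (he : e ∈ Q ⊓ P) : a * e * a⁻¹ * e⁻¹ = 1 ∨
    a * e * a⁻¹ * e⁻¹ = z ∨ a * e * a⁻¹ * e⁻¹ = x := by
  have he' := Subgroup.mem_inf.mp he
  rcases ha with ha | ha
  · rcases S.esQ.comm a ha e he'.1 with h | h
    · exact Or.inl h
    · exact Or.inr (Or.inl h)
  · rcases S.esP.comm a ha e he'.2 with h | h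
    · exact Or.inl h
    · exact Or.inr (Or.inr h)

/-- Construction from the working hypotheses. -/
theorem of_LX [Finite G] (S : LX Q z) (g : G) (hx : g * z * g⁻¹ ∈ Q) (hne : g * z * g⁻¹ ≠ z) :
    Orth2 Q (Cj g Q) z (g * z * g⁻¹) := by
  have O := S.orthSetting g hx
  refine ⟨S.es, O.esP, ?_, O.cP, S.nQ, O.nP, hx, O.main, hne, O.conj, ?_⟩
  · intro c hc
    rcases S.cQ c hc with e | e <;> rw [e]
    · exact Q.one_mem
    · exact S.es.z_mem
  · intro h hh a ha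
    have h1 : (h * g) * z = z * (h * g) := by
      have h2 : h * (g * z * g⁻¹) = z * h := by
        calc h * (g * z * g⁻¹) = (h * (g * z * g⁻¹) * h⁻¹) * h := by group
          _ = z * h := by rw [hh]
      calc (h * g) * z = h * (g * z * g⁻¹) * g := by group
        _ = z * h * g := by rw [h2]
        _ = z * (h * g) := by group
    have h2 := S.nQ _ h1 _ (mem_Cj_iff.mp ha)
    have e : h * g * (g⁻¹ * a * g) * (h * g)⁻¹ = h * a * h⁻¹ := by group
    rwa [e] at h2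

/-- Commutators with `E`. -/
theorem comm_E_mem_V (S : Orth2 Q P z x) {V : Subgroup G} (hV : V = closure ({z, x} : Set G)) {a e : G}
    (ha : a ∈ Q ∨ a ∈ P) (he : e ∈ Q ⊓ P) : a * e * a⁻¹ * e⁻¹ ∈ V := by
  subst hV
  rcases S.conj_inter ha he with h | h | h <;> rw [h]
  · exact Subgroup.one_mem _
  · exact subset_closure (Or.inl rfl)
  · exact subset_closure (Or.inr rfl)

/-- Conjugation by `Q` and `P` preserves `V`. -/
theorem conj_V (S : Orth2 Q P z x) {V : Subgroup G} (hV : V = closure ({z, x} : Set G)) {a v : G}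
    (ha : a ∈ Q ∨ a ∈ P) (hv : v ∈ V) : a * v * a⁻¹ ∈ V := by
  subst hV
  have hzV : z ∈ closure ({z, x} : Set G) := subset_closure (Or.inl rfl)
  have hxV : x ∈ closure ({z, x} : Set G) := subset_closure (Or.inr rfl)
  have h1 : closure ({z, x} : Set G) ≤ (closure ({z, x} : Set G)).comap (MulAut.conj a).toMonoidHom := by
    rw [closure_le]
    rintro b (rfl | rfl)
    · rw [SetLike.mem_coe, Subgroup.mem_comap]
      show a * b * a⁻¹ ∈ _
      have h2 := S.comm_E_mem_V rfl ha S.z_mem_inter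
      have e : a * b * a⁻¹ = (a * b * a⁻¹ * b⁻¹) * b := by group
      rw [e]
      exact Subgroup.mul_mem _ h2 hzV
    · rw [SetLike.mem_coe, Subgroup.mem_comap]
      show a * b * a⁻¹ ∈ _
      have h2 := S.comm_E_mem_V rfl ha S.x_mem_inter
      have e : a * b * a⁻¹ = (a * b * a⁻¹ * b⁻¹) * b := by group
      rw [e]
      exact Subgroup.mul_mem _ h2 hxV
  exact h1 hv

/-- The commutator of `X` and `E` lies in `V`. -/
theorem commutator_X_E (S : Orth2 Q P z x) {V : Subgroup G} (hV : V = closure ({z, x} : Set G)) :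
    ⁅Q ⊔ P, Q ⊓ P⁆ ≤ V := by
  rw [Subgroup.commutator_le]
  intro a ha e he
  rw [commutatorElement_def]
  rw [Subgroup.sup_eq_closure] at ha
  have hs : ∀ b ∈ (Q : Set G) ∪ P, b ∈ Q ∨ b ∈ P := fun b hb => hb
  refine Subgroup.closure_induction_left (p := fun a _ => a * e * a⁻¹ * e⁻¹ ∈ V) ?_ ?_ ?_ ha
  · simp
  · intro b hb y _ hy
    have e1 : (b * y) * e * (b * y)⁻¹ * e⁻¹ = (b * (y * e * y⁻¹ * e⁻¹) * b⁻¹) * (b * e * b⁻¹ * e⁻¹) := by group
    rw [e1]
    exact V.mul_mem (S.conj_V hV (hs b hb) hy) (S.comm_E_mem_V hV (hs b hb) he)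
  · intro b hb y _ hy
    have hb' : b⁻¹ ∈ Q ∨ b⁻¹ ∈ P := by
      rcases hs b hb with h | h
      · exact Or.inl (Q.inv_mem h)
      · exact Or.inr (P.inv_mem h)
    have e1 : (b⁻¹ * y) * e * (b⁻¹ * y)⁻¹ * e⁻¹ = (b⁻¹ * (y * e * y⁻¹ * e⁻¹) * b⁻¹⁻¹) * (b⁻¹ * e * b⁻¹⁻¹ * e⁻¹) := by
      group
    rw [e1]
    exact V.mul_mem (S.conj_V hV hb' hy) (S.comm_E_mem_V hV hb' he)

/-- Basic: `E` is normalized by both. -/
theorem conj_E (S : Orth2 Q P z x) {a e : G} (ha : a ∈ Q ∨ a ∈ P) (he : e ∈ Q ⊓ P) : a * e * a⁻¹ ∈ Q ⊓ P := by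
  have e1 : a * e * a⁻¹ = (a * e * a⁻¹ * e⁻¹) * e := by group
  rw [e1]
  rcases S.conj_inter ha he with h | h | h <;> rw [h]
  · simpa using he
  · exact (Q ⊓ P).mul_mem S.z_mem_inter he
  · exact (Q ⊓ P).mul_mem S.x_mem_inter he

/-- Commutators and squares in `R` lie in `E`. -/
theorem comm_sq_R (S : Orth2 Q P z x) {u v : G} (hu : u ∈ Qx Q x ⊔ Qx P z) (hv : v ∈ Qx Q x ⊔ Qx P z) :
    u * v * u⁻¹ * v⁻¹ ∈ Q ⊓ P ∧ u * u ∈ Q ⊓ P := by
  have hE := S.z_mem_inter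
  have hE' := S.x_mem_inter
  obtain ⟨r₁, hr₁, t₁, ht₁, rfl⟩ := S.mem_R.mp hu
  obtain ⟨r₂, hr₂, t₂, ht₂, rfl⟩ := S.mem_R.mp hv
  have hr₁' := mem_Qx.mp hr₁
  have hr₂' := mem_Qx.mp hr₂
  have ht₁' := mem_Qx.mp ht₁
  have ht₂' := mem_Qx.mp ht₂
  have hrr : ∀ a ∈ Q, ∀ b ∈ Q, a * b * a⁻¹ * b⁻¹ ∈ Q ⊓ P := by
    intro a ha b hb
    rcases S.esQ.comm a ha b hb with h | h <;> rw [h]
    · exact (Q ⊓ P).one_mem
    · exact hE
  have htt : ∀ a ∈ P, ∀ b ∈ P, a * b * a⁻¹ * b⁻¹ ∈ Q ⊓ P := by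
    intro a ha b hb
    rcases S.esP.comm a ha b hb with h | h <;> rw [h]
    · exact (Q ⊓ P).one_mem
    · exact hE'
  have hrt : ∀ r ∈ Qx Q x, ∀ t ∈ Qx P z, r * t * r⁻¹ * t⁻¹ ∈ Q ⊓ P := fun r hr t ht => S.comm_mem_inter hr ht
  constructor
  · -- expansion of the commutator
    have e1 : r₁ * t₁ * (r₂ * t₂) * (r₁ * t₁)⁻¹ * (r₂ * t₂)⁻¹
        = r₁ * ((t₁ * r₂ * t₁⁻¹ * r₂⁻¹) * (r₂ * (t₁ * t₂ * t₁⁻¹ * t₂⁻¹) * r₂⁻¹)) * r₁⁻¹
          * ((r₁ * r₂ * r₁⁻¹ * r₂⁻¹) * (r₂ * (r₁ * t₂ * r₁⁻¹ * t₂⁻¹) * r₂⁻¹)) := by group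
    rw [e1]
    have h1 : t₁ * r₂ * t₁⁻¹ * r₂⁻¹ ∈ Q ⊓ P := by
      have h2 := hrt r₂ hr₂ t₁ ht₁
      have e2 : t₁ * r₂ * t₁⁻¹ * r₂⁻¹ = (r₂ * t₁ * r₂⁻¹ * t₁⁻¹)⁻¹ := by group
      rw [e2]
      exact (Q ⊓ P).inv_mem h2
    refine (Q ⊓ P).mul_mem (S.conj_E (Or.inl hr₁'.1) ((Q ⊓ P).mul_mem h1 (S.conj_E (Or.inl hr₂'.1) (htt t₁ ht₁'.1 t₂ ht₂'.1))))
      ((Q ⊓ P).mul_mem (hrr r₁ hr₁'.1 r₂ hr₂'.1) (S.conj_E (Or.inl hr₂'.1) (hrt r₁ hr₁ t₂ ht₂)))
  · have e1 : r₁ * t₁ * (r₁ * t₁) = (r₁ * r₁) * (r₁⁻¹ * t₁ * r₁ * t₁⁻¹) * (t₁ * t₁) := by group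
    rw [e1]
    have h1 : r₁ * r₁ ∈ Q ⊓ P := by
      rcases S.esQ.sq r₁ hr₁'.1 with h | h <;> rw [h]
      · exact (Q ⊓ P).one_mem
      · exact hE
    have h2 : t₁ * t₁ ∈ Q ⊓ P := by
      rcases S.esP.sq t₁ ht₁'.1 with h | h <;> rw [h]
      · exact (Q ⊓ P).one_mem
      · exact hE'
    have hri : r₁⁻¹ ∈ Qx Q x := Subgroup.inv_mem _ hr₁
    have h3 := hrt r₁⁻¹ hri t₁ ht₁
    rw [inv_inv] at h3
    exact (Q ⊓ P).mul_mem ((Q ⊓ P).mul_mem h1 h3) h2

/-- The centralizer of `Qx` in `Q`. -/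
theorem mem_V_of_comm_Qx [Finite G] (S : Orth2 Q P z x) {V : Subgroup G} (hV : V = closure ({z, x} : Set G)) {s : G}
    (hs : s ∈ Q) (h : ∀ r ∈ Qx Q x, s * r = r * s) : s ∈ V := by
  subst hV
  apply ES'.dc S.esQ _ (subset_closure (Or.inl rfl)) hs
  · intro c hc hcV
    refine h c (mem_Qx.mpr ⟨hc, hcV x (subset_closure (Or.inr rfl))⟩)
  · rw [closure_le]
    rintro b (rfl | rfl)
    · exact S.esQ.z_mem
    · exact S.xQ

/-- Displacement on `Qx` determines displacement on `Q`. -/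
theorem disp_of_Qx [Finite G] (S : Orth2 Q P z x) {t : G} (htz : t * z = z * t)
    (h : ∀ r ∈ Qx Q x, t * r * t⁻¹ = r ∨ t * r * t⁻¹ = r * z) {v : G} (hv : v ∈ Q) :
    t * v * t⁻¹ = v ∨ t * v * t⁻¹ = v * z := by
  have E := S.esQ
  have hzz := E.z_sq
  have hxx := S.esP.z_sq
  have hzx := S.zx
  have htQ : t * v * t⁻¹ ∈ Q := S.nQ t htz v hv
  have hs : v⁻¹ * (t * v * t⁻¹) ∈ Q := Q.mul_mem (Q.inv_mem hv) htQ
  have h1 : ∀ r ∈ Qx Q x, (v⁻¹ * (t * v * t⁻¹)) * r = r * (v⁻¹ * (t * v * t⁻¹)) := by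
    intro r hr
    have hr' := mem_Qx.mp hr
    have e1 : (t * v * t⁻¹) * (t * r * t⁻¹) * (t * v * t⁻¹)⁻¹ * (t * r * t⁻¹)⁻¹ = v * r * v⁻¹ * r⁻¹ :=
      comm_conj E htz hv hr'.1
    have e2 : (t * v * t⁻¹) * (t * r * t⁻¹) * (t * v * t⁻¹)⁻¹ * (t * r * t⁻¹)⁻¹
        = (t * v * t⁻¹) * r * (t * v * t⁻¹)⁻¹ * r⁻¹ := by
      rcases h r hr with h2 | h2
      · rw [h2]
      · rw [h2, E.z_central r hr'.1]
        exact comm_x_right E htQ hr'.1
    rw [e2] at e1
    have e3 : t * v * t⁻¹ = v * (v⁻¹ * (t * v * t⁻¹)) := by group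
    rw [e3, E.comm_mul_left hv hs hr'.1] at e1
    exact comm_of_eq_one (mul_left_cancel (e1.trans (mul_one _).symm))
  have h2 := S.mem_V_of_comm_Qx rfl hs h1
  have hform : t * v * t⁻¹ = v * (v⁻¹ * (t * v * t⁻¹)) := by group
  generalize hsd : v⁻¹ * (t * v * t⁻¹) = s at *
  -- squares
  have hsq : (v * s) * (v * s) = v * v := by
    rw [← hform]
    have e : (t * v * t⁻¹) * (t * v * t⁻¹) = t * (v * v) * t⁻¹ := by group
    rw [e]
    rcases E.sq v hv with e2 | e2 <;> rw [e2]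
    · group
    · rw [htz]
      group
  have hxz := mem_closure_pair (x := z) (z := x) hzz hxx hzx.symm h2
  have hv2 : v * v = 1 ∨ v * v = z := E.sq v hv
  by_cases hvx : v * x = x * v
  · exact h v (mem_Qx.mpr ⟨hv, hvx⟩)
  have hc : v * x * v⁻¹ = z * x := ES'.conj_eq E hv S.xQ hvx
  have hcz : v * z * v⁻¹ = z := by
    rw [E.z_central v hv]
    group
  have hcvv : x * (v * v) = (v * v) * x := by
    rcases hv2 with e | e <;> rw [e]
    · group
    · exact hzx.symm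
  rcases hxz with e | e | e | e
  · left
    rw [hform, e, mul_one]
  · right
    rw [hform, e]
  · exfalso
    rw [e] at hsq
    have h3 : (v * x) * (v * x) = z * (v * v) := by
      calc (v * x) * (v * x) = (v * x * v⁻¹) * (v * v) * x := by group
        _ = z * (x * (v * v)) * x := by rw [hc]; group
        _ = z * ((v * v) * x) * x := by rw [hcvv]
        _ = z * (v * v) * (x * x) := by group
        _ = z * (v * v) := by rw [hxx, mul_one]
    rw [h3] at hsq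
    exact E.z_ne (mul_eq_right.mp hsq)
  · exfalso
    rw [e] at hsq
    have h4 : v * (z * x) * v⁻¹ = x := by
      calc v * (z * x) * v⁻¹ = (v * z * v⁻¹) * (v * x * v⁻¹) := by group
        _ = z * (z * x) := by rw [hcz, hc]
        _ = (z * z) * x := by group
        _ = x := by rw [hzz, one_mul]
    have h3 : (v * (z * x)) * (v * (z * x)) = (v * v) * z := by
      calc (v * (z * x)) * (v * (z * x)) = (v * (z * x) * v⁻¹) * (v * v) * (z * x) := by group
        _ = (x * (v * v)) * (z * x) := by rw [h4]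
        _ = ((v * v) * x) * (z * x) := by rw [hcvv]
        _ = (v * v) * (x * z) * x := by group
        _ = (v * v) * (z * x) * x := by rw [hzx]
        _ = (v * v) * z * (x * x) := by group
        _ = (v * v) * z := by rw [hxx, mul_one]
    rw [h3] at hsq
    exact E.z_ne (mul_eq_left.mp hsq)

/-- The conclusion for an element displacing `Qx` by `z` at most. -/
theorem mem_of_Qx_disp [Finite G] (S : Orth2 Q P z x) {t : G} (htz : t * z = z * t)
    (h : ∀ r ∈ Qx Q x, t * r * t⁻¹ = r ∨ t * r * t⁻¹ = r * z) : t ∈ Q :=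
  mem_of_disp S.esQ S.selfQ htz fun _ hv => S.disp_of_Qx htz h hv

/-- The centre of `R`. -/
theorem center_R_le [Finite G] (S : Orth2 Q P z x) {V : Subgroup G} (hV : V = closure ({z, x} : Set G)) {c : G}
    (hc : c ∈ Qx Q x ⊔ Qx P z) (hcc : ∀ u ∈ Qx Q x ⊔ Qx P z, c * u = u * c) : c ∈ V := by
  obtain ⟨r, hr, t, ht, rfl⟩ := S.mem_R.mp hc
  have hr' := mem_Qx.mp hr
  have ht' := mem_Qx.mp ht
  have hrz : r * z = z * r := S.esQ.z_central r hr'.1
  have htx : t * x = x * t := S.esP.z_central t ht'.1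
  -- `t` lies in `Q`
  have h1 : t ∈ Q := by
    apply S.mem_of_Qx_disp ht'.2
    intro r' hr'2
    have hr'3 := mem_Qx.mp hr'2
    have h2 := hcc r' (Subgroup.mem_sup_left hr'2)
    have h3 : t * r' * t⁻¹ = r⁻¹ * r' * r := by
      have h4 : t * r' = r⁻¹ * r' * (r * t) := by
        calc t * r' = r⁻¹ * (r * t * r') := by group
          _ = r⁻¹ * (r' * (r * t)) := by rw [h2]
          _ = r⁻¹ * r' * (r * t) := by group
      rw [h4]
      group
    rw [h3]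
    have hri := Q.inv_mem hr'.1
    have hr'Q := hr'3.1
    have e1 : r⁻¹ * r' * r = (r⁻¹ * r' * r⁻¹⁻¹ * r'⁻¹) * r' := by group
    rw [e1]
    rcases S.esQ.comm r⁻¹ hri r' hr'Q with e2 | e2 <;> rw [e2]
    · left
      rw [one_mul]
    · right
      exact S.esQ.z_central r' hr'Q |>.symm
  -- `r` lies in `P`
  have h2 : r ∈ P := by
    apply S.swap.mem_of_Qx_disp hr'.2
    intro t' ht'2
    have ht'3 := mem_Qx.mp ht'2
    have h3 := hcc t' (Subgroup.mem_sup_right ht'2)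
    have h4 : r * (t * t' * t⁻¹) * r⁻¹ = t' := by
      calc r * (t * t' * t⁻¹) * r⁻¹ = (r * t * t') * (r * t)⁻¹ := by group
        _ = (t' * (r * t)) * (r * t)⁻¹ := by rw [h3]
        _ = t' := by group
    have hcomm : t * t' * t⁻¹ = t' ∨ t * t' * t⁻¹ = x * t' := by
      have e1 : t * t' * t⁻¹ = (t * t' * t⁻¹ * t'⁻¹) * t' := by group
      rw [e1]
      rcases S.esP.comm t ht'.1 t' ht'3.1 with e2 | e2 <;> rw [e2]
      · left
        rw [one_mul]
      · right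
        rfl
    rcases hcomm with e | e
    · left
      rwa [e] at h4
    · right
      rw [e] at h4
      have h5 : r * (x * t') * r⁻¹ = x * (r * t' * r⁻¹) := by
        calc r * (x * t') * r⁻¹ = (r * x) * t' * r⁻¹ := by group
          _ = (x * r) * t' * r⁻¹ := by rw [hr'.2]
          _ = x * (r * t' * r⁻¹) := by group
      rw [h5] at h4
      have h6 : r * t' * r⁻¹ = x * t' := by
        calc r * t' * r⁻¹ = x * (x * (r * t' * r⁻¹)) := by
              rw [← mul_assoc, S.esP.z_sq, one_mul]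
          _ = x * t' := by rw [h4]
      rw [h6]
      exact (S.esP.z_central t' ht'3.1).symm
  apply S.mem_V_of_comm_Qx hV (Q.mul_mem hr'.1 h1)
  intro r' hr'2
  exact hcc r' (Subgroup.mem_sup_left hr'2)

/-- The structure of `R`. -/
theorem structure_R [Finite G] (S : Orth2 Q P z x) {V R : Subgroup G} (hV : V = closure ({z, x} : Set G))
    (hR : R = Qx Q x ⊔ Qx P z) :
    (Subgroup.center ↥R).map R.subtype = V ∧ Q ⊓ P ≤ (Subgroup.upperCentralSeries ↥R 2).map R.subtype ∧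
      Subgroup.upperCentralSeries ↥R 3 = ⊤ ∧ IsElementaryAbelian 2 (Q ⊓ P) ∧
      ∀ u ∈ R, ∀ v ∈ R, u * v * u⁻¹ * v⁻¹ ∈ Q ⊓ P ∧ u ^ 2 ∈ Q ⊓ P := by
  subst hR
  have hER : Q ⊓ P ≤ Qx Q x ⊔ Qx P z := fun e he =>
    Subgroup.mem_sup_left (S.inter_Qx (Subgroup.mem_inf.mp he).1 (Subgroup.mem_inf.mp he).2)
  have hVE : V ≤ Q ⊓ P := by
    subst hV
    rw [closure_le]
    rintro b (rfl | rfl)
    · exact S.z_mem_inter
    · exact S.x_mem_inter
  have hRX : Qx Q x ⊔ Qx P z ≤ Q ⊔ P := sup_le (inf_le_left.trans le_sup_left) (inf_le_left.trans le_sup_right)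
  have hgen : ∀ c : G, c * z = z * c → c * x = x * c → ∀ v ∈ V, v * c = c * v := by
    intro c h1 h2 v hv
    subst hV
    have h3 : closure ({z, x} : Set G) ≤ centralizer ({c} : Set G) := by
      rw [closure_le]
      rintro b (rfl | rfl)
      · exact Subgroup.mem_centralizer_singleton_iff.mpr h1.symm
      · exact Subgroup.mem_centralizer_singleton_iff.mpr h2.symm
    exact Subgroup.mem_centralizer_singleton_iff.mp (h3 hv)
  have hRC : ∀ c ∈ Qx Q x ⊔ Qx P z, ∀ v ∈ V, v * c = c * v := by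
    intro c hc v hv
    have h3 : Qx Q x ⊔ Qx P z ≤ centralizer ({v} : Set G) := by
      apply sup_le
      · intro a ha
        have ha' := mem_Qx.mp ha
        exact Subgroup.mem_centralizer_singleton_iff.mpr (hgen a (S.esQ.z_central a ha'.1) ha'.2 v hv).symm
      · intro a ha
        have ha' := mem_Qx.mp ha
        exact Subgroup.mem_centralizer_singleton_iff.mpr (hgen a ha'.2 (S.esP.z_central a ha'.1) v hv).symm
    exact (Subgroup.mem_centralizer_singleton_iff.mp (h3 hc)).symm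
  have hmemC : ∀ v (hv : v ∈ V), (⟨v, hER (hVE hv)⟩ : ↥(Qx Q x ⊔ Qx P z)) ∈ Subgroup.center ↥(Qx Q x ⊔ Qx P z) := by
    intro v hv
    refine Subgroup.mem_center_iff.mpr fun u => Subtype.ext ?_
    exact (hRC u.1 u.2 v hv).symm
  have hmem2 : ∀ e (he : e ∈ Q ⊓ P), (⟨e, hER he⟩ : ↥(Qx Q x ⊔ Qx P z)) ∈
      Subgroup.upperCentralSeries ↥(Qx Q x ⊔ Qx P z) 2 := by
    intro e he
    refine Subgroup.mem_upperCentralSeries_succ_iff.mpr fun y => ?_
    rw [Subgroup.upperCentralSeries_one]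
    have h1 : (y : G) * e * (y : G)⁻¹ * e⁻¹ ∈ V := S.commutator_X_E hV
      (Subgroup.commutator_mem_commutator (hRX y.2) he)
    have h2 : e * (y : G) * e⁻¹ * (y : G)⁻¹ ∈ V := by
      have e1 : e * (y : G) * e⁻¹ * (y : G)⁻¹ = ((y : G) * e * (y : G)⁻¹ * e⁻¹)⁻¹ := by group
      rw [e1]
      exact V.inv_mem h1
    exact hmemC _ h2
  refine ⟨?_, ?_, ?_, ?_, ?_⟩
  · apply le_antisymm
    · rintro _ ⟨c, hc, rfl⟩
      refine S.center_R_le hV c.2 fun u hu => ?_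
      have := Subgroup.mem_center_iff.mp hc ⟨u, hu⟩
      exact (congrArg Subtype.val this).symm
    · intro v hv
      exact ⟨⟨v, hER (hVE hv)⟩, hmemC v hv, rfl⟩
  · intro e he
    exact ⟨⟨e, hER he⟩, hmem2 e he, rfl⟩
  · rw [eq_top_iff]
    intro u _
    refine Subgroup.mem_upperCentralSeries_succ_iff.mpr fun y => ?_
    exact hmem2 _ (S.comm_sq_R u.2 y.2).1
  · refine ⟨.of_setLike_mul_comm fun a ha b hb => S.inter_comm ha hb, fun a ha => ?_⟩
    rw [pow_two]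
    exact S.inter_sq ha
  · intro u hu v hv
    have h1 := S.comm_sq_R hu hv
    exact ⟨h1.1, by
      rw [pow_two]
      exact h1.2⟩

end Orth2

/-- The setting from the hypotheses of the statements. -/
theorem orth2_of_large [Finite G] {Q : Subgroup G} (hQ : IsLargeExtraspecial Q) {z : G} (hz : Zd Q = Subgroup.zpowers z)
    (hz2 : orderOf z = 2) {g : G} (hgH : g ∉ centralizer ({z} : Set G)) (hgQ : g * z * g⁻¹ ∈ Q) :
    Orth2 Q (Cj g Q) z (g * z * g⁻¹) := by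
  obtain ⟨hE, hL2, hL3, _⟩ := hQ
  obtain ⟨z', E, hz'⟩ := exists_es hE
  have hzz' : z = z' := by
    have h1 : z ∈ Zd Q := by
      rw [hz]
      exact Subgroup.mem_zpowers z
    rcases (hz' z).mp h1 with e | e
    · rw [e] at hz2
      simp at hz2
    · exact e
  subst hzz'
  refine Orth2.of_LX (LX.of_hyp E hz' hL2 hL3) g hgQ ?_
  intro e
  apply hgH
  refine Subgroup.mem_centralizer_singleton_iff.mpr ?_
  calc g * z = (g * z * g⁻¹) * g := by group
    _ = z * g := by rw [e]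

end Cfsg.Agent.Lib.LargeX
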