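/-
The group generated by two orthogonal conjugates of a large extraspecial subgroup (helper18).
-/
import Cfsg.Agent.Lib.LargeX.Pair

set_option autoImplicit false

namespace Cfsg.Agent.Lib.LargeX

open Subgroup Cfsg Cfsg.Agent.Lib.TwoFusion

open scoped commutatorElement

variable {G : Type*} [Group G]

section six

variable {Γ : Type*} [Group Γ] {a b : Γ}

/-- The six elements. -/
def SixSet (a b y : Γ) : Prop := y = 1 ∨ y = a ∨ y = b ∨ y = a * b ∨ y = b * a ∨ y = a * b * a

theorem six_left_a (ha : a * a = 1) {y : Γ} (hy : SixSet a b y) : SixSet a b (a * y) := by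
  have h1 : ∀ c, a * (a * c) = c := fun c => by rw [← mul_assoc, ha, one_mul]
  rcases hy with rfl | rfl | rfl | rfl | rfl | rfl
  · exact Or.inr (Or.inl (mul_one a))
  · exact Or.inl ha
  · exact Or.inr (Or.inr (Or.inr (Or.inl rfl)))
  · exact Or.inr (Or.inr (Or.inl (h1 _)))
  · exact Or.inr (Or.inr (Or.inr (Or.inr (Or.inr (by rw [mul_assoc])))))
  · refine Or.inr (Or.inr (Or.inr (Or.inr (Or.inl ?_))))
    rw [mul_assoc a b a, h1]

theorem six_left_b (ha : a * a = 1) (hb : b * b = 1) (hab : (a * b) * (a * b) * (a * b) = 1) {y : Γ}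
    (hy : SixSet a b y) : SixSet a b (b * y) := by
  have h1 : ∀ c, b * (b * c) = c := fun c => by rw [← mul_assoc, hb, one_mul]
  have h2 : ∀ c, a * (a * c) = c := fun c => by rw [← mul_assoc, ha, one_mul]
  have h3 : b * (a * b) = a * b * a := by
    -- `(ab)³ = 1` gives `bab = aba`
    have h4 : (a * b * a) * (b * a * b) = 1 := by
      calc (a * b * a) * (b * a * b) = (a * b) * (a * b) * (a * b) := by group
        _ = 1 := hab
    have h5 : b * a * b = (a * b * a)⁻¹ := eq_inv_of_mul_eq_one_right h4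
    have h6 : (a * b * a)⁻¹ = a * b * a := by
      apply inv_eq_of_mul_eq_one_left
      calc a * b * a * (a * b * a) = a * b * (a * a) * b * a := by group
        _ = a * (b * b) * a := by rw [ha]; group
        _ = a * a := by rw [hb]; group
        _ = 1 := ha
    rw [← mul_assoc, h5, h6]
  rcases hy with rfl | rfl | rfl | rfl | rfl | rfl
  · exact Or.inr (Or.inr (Or.inl (mul_one b)))
  · exact Or.inr (Or.inr (Or.inr (Or.inr (Or.inl rfl))))
  · exact Or.inl hb
  · exact Or.inr (Or.inr (Or.inr (Or.inr (Or.inr h3))))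
  · exact Or.inr (Or.inl (h1 _))
  · refine Or.inr (Or.inr (Or.inr (Or.inl ?_)))
    calc b * (a * b * a) = (b * (a * b)) * a := by group
      _ = (a * b * a) * a := by rw [h3]
      _ = a * b * (a * a) := by group
      _ = a * b := by rw [ha, mul_one]

theorem card_le_six_of_six [Finite Γ] (h : ∀ y : Γ, SixSet a b y) : Nat.card Γ ≤ 6 := by
  classical
  haveI := Fintype.ofFinite Γ
  rw [Nat.card_eq_fintype_card]
  have h1 : (Finset.univ : Finset Γ) ⊆ {1, a, b, a * b, b * a, a * b * a} := by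
    intro y _
    simpa [SixSet] using h y
  exact (Finset.card_le_card h1).trans Finset.card_le_six

end six

/-- A normal 2-subgroup maps trivially onto the symmetric group of degree 3. -/
theorem perm3_two_elt (σ : Equiv.Perm (Fin 3)) (k : ℕ) (h : σ ^ (2 ^ k) = 1) : σ ^ 2 = 1 := by
  have key : ∀ s : Equiv.Perm (Fin 3), s ^ 2 = 1 ∨ s ^ 3 = 1 := by decide
  rcases key σ with h1 | h1
  · exact h1
  · have h2 : Nat.Coprime 3 (2 ^ k) := Nat.Coprime.pow_right _ (by norm_num)
    have h3 : σ = 1 := by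
      have h4 := pow_gcd_eq_one.mpr ⟨h1, h⟩
      rw [h2] at h4
      simpa using h4
    rw [h3, one_pow]

theorem perm3_normal_two {X : Type*} [Group X] (f : X →* Equiv.Perm (Fin 3)) (hf : Function.Surjective f)
    (A : Subgroup X) [hA : A.Normal] (hp : IsPGroup 2 A) {a : X} (ha : a ∈ A) : f a = 1 := by
  have hpow : ∀ b ∈ A, (f b) ^ 2 = 1 := by
    intro b hb
    obtain ⟨k, hk⟩ := hp ⟨b, hb⟩
    have h1 : b ^ (2 ^ k) = 1 := congrArg Subtype.val hk
    apply perm3_two_elt _ k
    rw [← map_pow, h1, map_one]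
  have key : ∀ σ : Equiv.Perm (Fin 3), σ ^ 2 = 1 → (∀ τ : Equiv.Perm (Fin 3), (τ * σ * τ⁻¹ * σ⁻¹) ^ 2 = 1) → σ = 1 := by
    decide +kernel
  apply key _ (hpow a ha)
  intro τ
  obtain ⟨b, rfl⟩ := hf τ
  have h1 : b * a * b⁻¹ * a⁻¹ ∈ A := A.mul_mem (hA.conj_mem a ha b) (A.inv_mem ha)
  have h2 := hpow _ h1
  simpa only [map_mul, map_inv] using h2

namespace VPair

variable {z x q p : G}

/-- The index computation, in a subgroup. -/
theorem relIndex_K [Finite G] (D : VPair z x q p) {V K : Subgroup G} (hV : V = closure ({x, z} : Set G))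
    (hK : K ≤ normalizer (V : Set G)) (hq : q ∈ K) (hp : p ∈ K) :
    (centralizer (V : Set G)).relIndex K = 6 := by
  classical
  have hmem := fun {a : G} => D.mem_iff hV (a := a)
  have hxV : x ∈ V := hmem.mpr (Or.inr (Or.inl rfl))
  have hzV : z ∈ V := hmem.mpr (Or.inr (Or.inr (Or.inl rfl)))
  have hC : centralizer (V : Set G) = centralizer ({x} : Set G) ⊓ centralizer ({z} : Set G) := by
    ext c
    rw [Subgroup.mem_inf, Subgroup.mem_centralizer_singleton_iff, Subgroup.mem_centralizer_singleton_iff,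
      Subgroup.mem_centralizer_iff]
    constructor
    · intro h
      exact ⟨(h x hxV).symm, (h z hzV).symm⟩
    · rintro ⟨h1, h2⟩ a ha
      rcases hmem.mp ha with rfl | rfl | rfl | rfl
      · simp
      · exact h1.symm
      · exact h2.symm
      · rw [mul_assoc x z c, ← h2, ← mul_assoc, ← h1, mul_assoc]
  have hconjNe : ∀ (k a : G), a ≠ 1 → k * a * k⁻¹ ≠ 1 := by
    intro k a ha e
    apply ha
    have e2 : a = k⁻¹ * (k * a * k⁻¹) * k := by group
    rw [e2, e]
    group
  have h1 : (centralizer ({z} : Set G)).relIndex K = 3 := by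
    rw [relIndex_centralizer_singleton]
    have hs : (Set.range fun k : K => (k : G) * z * (k : G)⁻¹)
        = (({z, x, x * z} : Finset G) : Set G) := by
      ext a
      simp only [Set.mem_range, Finset.coe_insert, Finset.coe_singleton, Set.mem_insert_iff, Set.mem_singleton_iff]
      constructor
      · rintro ⟨k, rfl⟩
        have h2 : (k : G) * z * (k : G)⁻¹ ∈ V := (Subgroup.mem_normalizer_iff.mp (hK k.2) z).mp hzV
        rcases hmem.mp h2 with h3 | h3 | h3 | h3
        · exact absurd h3 (hconjNe _ _ D.z1)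
        · exact Or.inr (Or.inl h3)
        · exact Or.inl h3
        · exact Or.inr (Or.inr h3)
      · rintro (e | e | e) <;> rw [e]
        · exact ⟨1, by simp⟩
        · refine ⟨⟨q * p, Subgroup.mul_mem _ hq hp⟩, ?_⟩
          show (q * p) * z * (q * p)⁻¹ = x
          calc (q * p) * z * (q * p)⁻¹ = q * (p * z * p⁻¹) * q⁻¹ := by group
            _ = (q * x * q⁻¹) * (q * z * q⁻¹) := by rw [D.pz]; group
            _ = z * x * z := by rw [D.qx, D.q_conj_z]
            _ = x * (z * z) := by rw [D.zx, mul_assoc]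
            _ = x := by rw [D.zz, mul_one]
        · exact ⟨⟨p, hp⟩, D.pz⟩
    rw [hs, Set.ncard_coe_finset]
    rw [Finset.card_eq_three.mpr ⟨z, x, x * z, D.ne.symm, D.xz_ne_z.symm, D.xz_ne_x.symm, rfl⟩]
  have h2 : (centralizer ({x} : Set G)).relIndex (centralizer ({z} : Set G) ⊓ K) = 2 := by
    rw [relIndex_centralizer_singleton]
    have hs : (Set.range fun k : ↥(centralizer ({z} : Set G) ⊓ K) => (k : G) * x * (k : G)⁻¹)
        = (({x, x * z} : Finset G) : Set G) := by
      ext a
      simp only [Set.mem_range, Finset.coe_insert, Finset.coe_singleton, Set.mem_insert_iff, Set.mem_singleton_iff]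
      constructor
      · rintro ⟨k, rfl⟩
        have hk := Subgroup.mem_inf.mp k.2
        have h2 : (k : G) * x * (k : G)⁻¹ ∈ V := (Subgroup.mem_normalizer_iff.mp (hK hk.2) x).mp hxV
        rcases hmem.mp h2 with h3 | h3 | h3 | h3
        · exact absurd h3 (hconjNe _ _ D.x1)
        · exact Or.inl h3
        · exfalso
          have h4 := Subgroup.mem_centralizer_singleton_iff.mp hk.1
          have h5 : (k : G) * z * (k : G)⁻¹ = z := by
            rw [h4]
            group
          have h6 : (k : G) * x * (k : G)⁻¹ = (k : G) * z * (k : G)⁻¹ := h3.trans h5.symm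
          exact D.ne (mul_left_cancel (mul_right_cancel h6))
        · exact Or.inr h3
      · rintro (e | e) <;> rw [e]
        · exact ⟨1, by simp⟩
        · refine ⟨⟨q, Subgroup.mem_inf.mpr ⟨Subgroup.mem_centralizer_singleton_iff.mpr D.qz, hq⟩⟩, ?_⟩
          show q * x * q⁻¹ = x * z
          rw [D.qx, D.zx]
    rw [hs, Set.ncard_coe_finset]
    rw [Finset.card_eq_two.mpr ⟨x, x * z, D.xz_ne_x.symm, rfl⟩]
  have h3 := Subgroup.relIndex_inf_mul_relIndex (centralizer ({x} : Set G)) (centralizer ({z} : Set G)) K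
  rw [h1, h2] at h3
  rw [hC, ← h3]

end VPair

namespace Orth2

variable {Q P : Subgroup G} {z x : G}

/-- `Q` normalizes `R`. -/
theorem Q_conj_R (S : Orth2 Q P z x) {a u : G} (ha : a ∈ Q) (hu : u ∈ Qx Q x ⊔ Qx P z) :
    a * u * a⁻¹ ∈ Qx Q x ⊔ Qx P z := by
  obtain ⟨r, hr, t, ht, rfl⟩ := S.mem_R.mp hu
  have hr' := mem_Qx.mp hr
  have ht' := mem_Qx.mp ht
  have e : a * (r * t) * a⁻¹ = (a * r * a⁻¹) * (a * t * a⁻¹ * t⁻¹) * t := by group
  rw [e]
  have hV : ∀ v : G, v = x ∨ v = z * x → a⁻¹ * v * a = x ∨ a⁻¹ * v * a = z * x := by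
    intro v hv
    by_cases hc : a * x = x * a
    · have h1 : ∀ w : G, a⁻¹ * (z * w) * a = z * (a⁻¹ * w * a) := by
        intro w
        have h2 := S.esQ.z_central a⁻¹ (Q.inv_mem ha)
        calc a⁻¹ * (z * w) * a = (a⁻¹ * z) * w * a := by group
          _ = (z * a⁻¹) * w * a := by rw [h2]
          _ = z * (a⁻¹ * w * a) := by group
      have h3 : a⁻¹ * x * a = x := by
        calc a⁻¹ * x * a = a⁻¹ * (x * a) := by group
          _ = a⁻¹ * (a * x) := by rw [hc]
          _ = x := by group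
      rcases hv with rfl | rfl
      · exact Or.inl h3
      · right
        rw [h1, h3]
    · have hai : a⁻¹ * x ≠ x * a⁻¹ := by
        intro h
        apply hc
        calc a * x = a * (x * a⁻¹) * a := by group
          _ = a * (a⁻¹ * x) * a := by rw [h]
          _ = x * a := by group
      have h2 := ES'.conj_eq S.esQ (Q.inv_mem ha) S.xQ hai
      rw [inv_inv] at h2
      have h1 : ∀ w : G, a⁻¹ * (z * w) * a = z * (a⁻¹ * w * a) := by
        intro w
        have h2 := S.esQ.z_central a⁻¹ (Q.inv_mem ha)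
        calc a⁻¹ * (z * w) * a = (a⁻¹ * z) * w * a := by group
          _ = (z * a⁻¹) * w * a := by rw [h2]
          _ = z * (a⁻¹ * w * a) := by group
      rcases hv with rfl | rfl
      · exact Or.inr h2
      · left
        rw [h1, h2, ← mul_assoc, S.esQ.z_sq, one_mul]
  have h1 : a * r * a⁻¹ ∈ Qx Q x := by
    refine mem_Qx.mpr ⟨S.nQ a (S.esQ.z_central a ha) r hr'.1, ?_⟩
    have e1 : a * r * a⁻¹ = (a * r * a⁻¹ * r⁻¹) * r := by group
    rw [e1]
    rcases S.esQ.comm a ha r hr'.1 with h2 | h2 <;> rw [h2]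
    · rw [one_mul]
      exact hr'.2
    · rw [mul_assoc, hr'.2, ← mul_assoc, ← mul_assoc, S.zx]
  have h2 : a * t * a⁻¹ * t⁻¹ ∈ Qx Q x := by
    have h3 : a * t * a⁻¹ * t⁻¹ ∈ Q := by
      have e1 : a * t * a⁻¹ * t⁻¹ = a * (t * a⁻¹ * t⁻¹) := by group
      rw [e1]
      exact Q.mul_mem ha (S.nQ t ht'.2 _ (Q.inv_mem ha))
    refine mem_Qx.mpr ⟨h3, ?_⟩
    have htx : t * x = x * t := S.esP.z_central t ht'.1
    have hcv : ∀ v : G, (v = x ∨ v = z * x) → t * v = v * t := by
      rintro v (rfl | rfl)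
      · exact htx
      · rw [mul_assoc, ← htx, ← mul_assoc, ← mul_assoc, ht'.2]
    have hv := hV x (Or.inl rfl)
    have h4 := hcv _ hv
    have h5 := (hcv x (Or.inl rfl))
    have h6 : t⁻¹ * x = x * t⁻¹ := by
      calc t⁻¹ * x = t⁻¹ * (x * t) * t⁻¹ := by group
        _ = t⁻¹ * (t * x) * t⁻¹ := by rw [h5]
        _ = x * t⁻¹ := by group
    calc a * t * a⁻¹ * t⁻¹ * x = a * t * a⁻¹ * (t⁻¹ * x) := by group
      _ = a * t * a⁻¹ * (x * t⁻¹) := by rw [h6]
      _ = a * t * (a⁻¹ * x * a) * a⁻¹ * t⁻¹ := by group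
      _ = a * (t * (a⁻¹ * x * a)) * a⁻¹ * t⁻¹ := by group
      _ = a * ((a⁻¹ * x * a) * t) * a⁻¹ * t⁻¹ := by rw [h4]
      _ = x * (a * t * a⁻¹ * t⁻¹) := by group
  exact Subgroup.mul_mem _ (Subgroup.mul_mem _ (Subgroup.mem_sup_left h1) (Subgroup.mem_sup_left h2))
    (Subgroup.mem_sup_right ht)

/-- `X` normalizes `R`. -/
theorem X_le_normalizer_R [Finite G] (S : Orth2 Q P z x) : Q ⊔ P ≤ normalizer ((Qx Q x ⊔ Qx P z : Subgroup G) : Set G) := by
  apply sup_le
  · intro a ha
    exact mem_normalizer_of_map_le fun u hu => S.Q_conj_R ha hu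
  · intro a ha
    refine mem_normalizer_of_map_le fun u hu => ?_
    have h1 := S.swap.Q_conj_R ha (u := u) (by rwa [sup_comm])
    rwa [sup_comm] at h1

end Orth2

end Cfsg.Agent.Lib.LargeX
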