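/-
The group generated by two orthogonal conjugates, continued (helper18).
-/
import Cfsg.Agent.Lib.LargeX.Xgroup

set_option autoImplicit false

namespace Cfsg.Agent.Lib.LargeX

open Subgroup Cfsg Cfsg.Agent.Lib.TwoFusion

open scoped commutatorElement

variable {G : Type*} [Group G]

namespace Orth2

variable {Q P : Subgroup G} {z x q p : G}

/-- The element measuring the failure of the braid relation lies in `R`. -/
theorem tau_mem_R (S : Orth2 Q P z x) (hq : q ∈ Q) (hp : p ∈ P) (hqx : q * x * q⁻¹ = z * x) (hpz : p * z * p⁻¹ = x * z) :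
    (q * p * q⁻¹) * (p * q * p⁻¹)⁻¹ ∈ Qx Q x ⊔ Qx P z := by
  have hzz := S.esQ.z_sq
  have hxx := S.esP.z_sq
  have hzx := S.zx
  have a1 : q * z * q⁻¹ = z := by
    rw [S.esQ.z_central q hq]
    group
  have a3 : q⁻¹ * z * q = z := by
    rw [S.esQ.z_central _ (Q.inv_mem hq)]
    group
  have a4 : q⁻¹ * x * q = z * x := by
    calc q⁻¹ * x * q = q⁻¹ * (z * (z * x)) * q := by rw [← mul_assoc z z x, hzz, one_mul]
      _ = (q⁻¹ * z * q) * (q⁻¹ * (z * x) * q) := by group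
      _ = z * (q⁻¹ * (q * x * q⁻¹) * q) := by rw [a3, hqx]
      _ = z * x := by group
  have b1 : p * x * p⁻¹ = x := by
    rw [S.esP.z_central p hp]
    group
  have b3 : p⁻¹ * x * p = x := by
    rw [S.esP.z_central _ (P.inv_mem hp)]
    group
  have b4 : p⁻¹ * z * p = x * z := by
    calc p⁻¹ * z * p = p⁻¹ * (x * (x * z)) * p := by rw [← mul_assoc x x z, hxx, one_mul]
      _ = (p⁻¹ * x * p) * (p⁻¹ * (x * z) * p) := by group
      _ = x * (p⁻¹ * (p * z * p⁻¹) * p) := by rw [b3, hpz]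
      _ = x * z := by group
  have h1 : (q⁻¹ * p) * z * (q⁻¹ * p)⁻¹ = x := by
    calc (q⁻¹ * p) * z * (q⁻¹ * p)⁻¹ = q⁻¹ * (p * z * p⁻¹) * q := by group
      _ = q⁻¹ * (x * z) * q := by rw [hpz]
      _ = (q⁻¹ * x * q) * (q⁻¹ * z * q) := by group
      _ = z * x * z := by rw [a4, a3]
      _ = x * (z * z) := by rw [hzx, mul_assoc]
      _ = x := by rw [hzz, mul_one]
  have hw : (q⁻¹ * p) * q⁻¹ * (q⁻¹ * p)⁻¹ ∈ P := S.conjQP _ h1 _ (Q.inv_mem hq)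
  have hy : p * ((q⁻¹ * p) * q⁻¹ * (q⁻¹ * p)⁻¹) ∈ P := P.mul_mem hp hw
  have e : (q * p * q⁻¹) * (p * q * p⁻¹)⁻¹ = q * (p * ((q⁻¹ * p) * q⁻¹ * (q⁻¹ * p)⁻¹)) * q⁻¹ := by group
  rw [e]
  apply S.Q_conj_R hq
  refine Subgroup.mem_sup_right (mem_Qx.mpr ⟨hy, ?_⟩)
  -- the element fixes `z`
  have h2 : (p * ((q⁻¹ * p) * q⁻¹ * (q⁻¹ * p)⁻¹)) * z * (p * ((q⁻¹ * p) * q⁻¹ * (q⁻¹ * p)⁻¹))⁻¹ = z := by
    calc (p * ((q⁻¹ * p) * q⁻¹ * (q⁻¹ * p)⁻¹)) * z * (p * ((q⁻¹ * p) * q⁻¹ * (q⁻¹ * p)⁻¹))⁻¹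
        = p * (q⁻¹ * (p * (q⁻¹ * (p⁻¹ * (q * z * q⁻¹) * p) * q) * p⁻¹) * q) * p⁻¹ := by group
      _ = p * (q⁻¹ * (p * (q⁻¹ * (x * z) * q) * p⁻¹) * q) * p⁻¹ := by rw [a1, b4]
      _ = p * (q⁻¹ * (p * ((q⁻¹ * x * q) * (q⁻¹ * z * q)) * p⁻¹) * q) * p⁻¹ := by group
      _ = p * (q⁻¹ * (p * (z * x * z) * p⁻¹) * q) * p⁻¹ := by rw [a4, a3]
      _ = p * (q⁻¹ * (p * x * p⁻¹) * q) * p⁻¹ := by rw [hzx, mul_assoc x z z, hzz, mul_one]
      _ = p * (z * x) * p⁻¹ := by rw [b1, a4]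
      _ = (p * z * p⁻¹) * (p * x * p⁻¹) := by group
      _ = x * z * x := by rw [hpz, b1]
      _ = z * (x * x) := by rw [← hzx, mul_assoc]
      _ = z := by rw [hxx, mul_one]
  calc (p * ((q⁻¹ * p) * q⁻¹ * (q⁻¹ * p)⁻¹)) * z
      = ((p * ((q⁻¹ * p) * q⁻¹ * (q⁻¹ * p)⁻¹)) * z * (p * ((q⁻¹ * p) * q⁻¹ * (q⁻¹ * p)⁻¹))⁻¹)
        * (p * ((q⁻¹ * p) * q⁻¹ * (q⁻¹ * p)⁻¹)) := by group
    _ = z * (p * ((q⁻¹ * p) * q⁻¹ * (q⁻¹ * p)⁻¹)) := by rw [h2]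

theorem Qx_le_R : Qx Q x ≤ Qx Q x ⊔ Qx P z := le_sup_left

theorem R_le_X : Qx Q x ⊔ Qx P z ≤ Q ⊔ P :=
  sup_le (inf_le_left.trans le_sup_left) (inf_le_left.trans le_sup_right)

/-- Two elements of `Q` acting the same way on `x` differ by an element of `Qx`. -/
theorem inv_mul_mem_Qx (S : Orth2 Q P z x) {a b : G} (ha : a ∈ Q) (hb : b ∈ Q) (hax : a * x ≠ x * a) (hbx : b * x ≠ x * b) :
    a⁻¹ * b ∈ Qx Q x := by
  refine mem_Qx.mpr ⟨Q.mul_mem (Q.inv_mem ha) hb, ?_⟩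
  have h1 := ES'.conj_eq S.esQ ha S.xQ hax
  have h2 := ES'.conj_eq S.esQ hb S.xQ hbx
  calc a⁻¹ * b * x = a⁻¹ * (b * x * b⁻¹) * b := by group
    _ = a⁻¹ * (a * x * a⁻¹) * b := by rw [h1, h2]
    _ = x * (a⁻¹ * b) := by group

/-- The quotient has at most six elements. -/
theorem card_quot_le_six [Finite G] (S : Orth2 Q P z x) (hq : q ∈ Q) (hp : p ∈ P) (hqc : q * x ≠ x * q)
    (hpc : p * z ≠ z * p)
    [hn : ((Qx Q x ⊔ Qx P z).subgroupOf (Q ⊔ P)).Normal] :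
    Nat.card (↥(Q ⊔ P) ⧸ (Qx Q x ⊔ Qx P z).subgroupOf (Q ⊔ P)) ≤ 6 := by
  have hqX : q ∈ Q ⊔ P := Subgroup.mem_sup_left hq
  have hpX : p ∈ Q ⊔ P := Subgroup.mem_sup_right hp
  have hqx := ES'.conj_eq S.esQ hq S.xQ hqc
  have hpz := ES'.conj_eq S.esP hp S.zP hpc
  let π : ↥(Q ⊔ P) →* ↥(Q ⊔ P) ⧸ (Qx Q x ⊔ Qx P z).subgroupOf (Q ⊔ P) := QuotientGroup.mk' _
  have hπ1 : ∀ y : ↥(Q ⊔ P), (y : G) ∈ Qx Q x ⊔ Qx P z → π y = 1 := by
    intro y hy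
    rw [QuotientGroup.mk'_apply, QuotientGroup.eq_one_iff]
    exact hy
  let a := π ⟨q, hqX⟩
  let b := π ⟨p, hpX⟩
  have hEQ : ∀ e ∈ Q ⊓ P, e ∈ Qx Q x ⊔ Qx P z := fun e he =>
    Subgroup.mem_sup_left (S.inter_Qx (Subgroup.mem_inf.mp he).1 (Subgroup.mem_inf.mp he).2)
  have ha : a * a = 1 := by
    rw [← map_mul]
    apply hπ1
    show q * q ∈ _
    rcases S.esQ.sq q hq with e | e <;> rw [e]
    · exact Subgroup.one_mem _
    · exact hEQ _ S.z_mem_inter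
  have hb : b * b = 1 := by
    rw [← map_mul]
    apply hπ1
    show p * p ∈ _
    rcases S.esP.sq p hp with e | e <;> rw [e]
    · exact Subgroup.one_mem _
    · exact hEQ _ S.x_mem_inter
  have hai : a⁻¹ = a := inv_eq_of_mul_eq_one_left ha
  have hbi : b⁻¹ = b := inv_eq_of_mul_eq_one_left hb
  have hab : (a * b) * (a * b) * (a * b) = 1 := by
    have h1 := hπ1 ((⟨q, hqX⟩ * ⟨p, hpX⟩ * (⟨q, hqX⟩ : ↥(Q ⊔ P))⁻¹) * (⟨p, hpX⟩ * ⟨q, hqX⟩ * (⟨p, hpX⟩ : ↥(Q ⊔ P))⁻¹)⁻¹)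
      (S.tau_mem_R hq hp hqx hpz)
    simp only [map_mul, map_inv] at h1
    change a * b * a⁻¹ * (b * a * b⁻¹)⁻¹ = 1 at h1
    rw [hai, hbi] at h1
    have h2 : (b * a * b)⁻¹ = b * a * b := by
      rw [mul_inv_rev, mul_inv_rev, hai, hbi, mul_assoc]
    rw [h2] at h1
    calc (a * b) * (a * b) * (a * b) = a * b * a * (b * a * b) := by group
      _ = 1 := h1
  have hQs : ∀ s (hs : s ∈ Q), π ⟨s, Subgroup.mem_sup_left hs⟩ = 1 ∨ π ⟨s, Subgroup.mem_sup_left hs⟩ = a := by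
    intro s hs
    by_cases hc : s * x = x * s
    · left
      exact hπ1 _ (Subgroup.mem_sup_left (mem_Qx.mpr ⟨hs, hc⟩))
    · right
      show π _ = π _
      rw [QuotientGroup.mk'_apply, QuotientGroup.mk'_apply, QuotientGroup.eq]
      apply Subgroup.mem_subgroupOf.mpr
      show s⁻¹ * q ∈ Qx Q x ⊔ Qx P z
      exact Subgroup.mem_sup_left (S.inv_mul_mem_Qx hs hq hc hqc)
  have hPs : ∀ s (hs : s ∈ P), π ⟨s, Subgroup.mem_sup_right hs⟩ = 1 ∨ π ⟨s, Subgroup.mem_sup_right hs⟩ = b := by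
    intro s hs
    by_cases hc : s * z = z * s
    · left
      exact hπ1 _ (Subgroup.mem_sup_right (mem_Qx.mpr ⟨hs, hc⟩))
    · right
      show π _ = π _
      rw [QuotientGroup.mk'_apply, QuotientGroup.mk'_apply, QuotientGroup.eq]
      apply Subgroup.mem_subgroupOf.mpr
      show s⁻¹ * p ∈ Qx Q x ⊔ Qx P z
      exact Subgroup.mem_sup_right (S.swap.inv_mul_mem_Qx hs hp hc hpc)
  have hstep : ∀ s (hs : s ∈ (Q : Set G) ∪ P) (y : ↥(Q ⊔ P)), SixSet a b (π y) →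
      ∃ hs' : s * y ∈ Q ⊔ P, SixSet a b (π ⟨s * y, hs'⟩) := by
    intro s hs y hy
    rcases hs with hs | hs
    · refine ⟨Subgroup.mul_mem _ (Subgroup.mem_sup_left hs) y.2, ?_⟩
      have e : (⟨s * y, Subgroup.mul_mem _ (Subgroup.mem_sup_left hs) y.2⟩ : ↥(Q ⊔ P))
          = ⟨s, Subgroup.mem_sup_left hs⟩ * y := rfl
      rw [e, map_mul]
      rcases hQs s hs with h1 | h1 <;> rw [h1]
      · rwa [one_mul]
      · exact six_left_a ha hy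
    · refine ⟨Subgroup.mul_mem _ (Subgroup.mem_sup_right hs) y.2, ?_⟩
      have e : (⟨s * y, Subgroup.mul_mem _ (Subgroup.mem_sup_right hs) y.2⟩ : ↥(Q ⊔ P))
          = ⟨s, Subgroup.mem_sup_right hs⟩ * y := rfl
      rw [e, map_mul]
      rcases hPs s hs with h1 | h1 <;> rw [h1]
      · rwa [one_mul]
      · exact six_left_b ha hb hab hy
  have hall : ∀ y (hy : y ∈ Q ⊔ P), SixSet a b (π ⟨y, hy⟩) := by
    intro y hy
    have hy2 := hy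
    rw [Subgroup.sup_eq_closure] at hy2
    refine Subgroup.closure_induction_left
      (p := fun y _ => ∃ h : y ∈ Q ⊔ P, SixSet a b (π ⟨y, h⟩)) ?_ ?_ ?_ hy2 |>.elim fun _ h => h
    · exact ⟨Subgroup.one_mem _, Or.inl (map_one π)⟩
    · rintro s hs y _ ⟨h1, h2⟩
      exact hstep s hs ⟨y, h1⟩ h2
    · rintro s hs y _ ⟨h1, h2⟩
      have hs' : s⁻¹ ∈ (Q : Set G) ∪ P := by
        rcases hs with hs | hs
        · exact Or.inl (Q.inv_mem hs)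
        · exact Or.inr (P.inv_mem hs)
      exact hstep s⁻¹ hs' ⟨y, h1⟩ h2
  refine card_le_six_of_six (a := a) (b := b) fun y => ?_
  obtain ⟨y₀, rfl⟩ := QuotientGroup.mk'_surjective _ y
  exact hall y₀.1 y₀.2

end Orth2

end Cfsg.Agent.Lib.LargeX
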