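/-
The group generated by two orthogonal conjugates: main theorem (helper18).
-/
import Cfsg.Agent.Lib.LargeX.Xgroup2

set_option autoImplicit false

namespace Cfsg.Agent.Lib.LargeX

open Subgroup Cfsg Cfsg.Agent.Lib.TwoFusion

open scoped commutatorElement

variable {G : Type*} [Group G]

namespace Orth2

variable {Q P : Subgroup G} {z x : G}

/-- The homomorphism to the symmetric group of degree three given by the action on the three involutions. -/
theorem exists_hom [Finite G] {q p : G} (D : VPair z x q p) {V K : Subgroup G} (hV : V = closure ({x, z} : Set G))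
    (hK : K ≤ normalizer (V : Set G)) (hq : q ∈ K) (hp : p ∈ K) :
    ∃ F : ↥K →* Equiv.Perm (Fin 3), Function.Surjective F ∧ F.ker = (centralizer (V : Set G)).subgroupOf K := by
  classical
  have hmem := fun {a : G} => D.mem_iff hV (a := a)
  let T : Finset G := {z, x, x * z}
  have hT : ∀ a, a ∈ T ↔ a = z ∨ a = x ∨ a = x * z := by
    intro a
    simp [T]
  have hTV : ∀ a, a ∈ T ↔ a ∈ V ∧ a ≠ 1 := by
    intro a
    rw [hT, hmem]
    constructor
    · rintro (rfl | rfl | rfl)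
      · exact ⟨Or.inr (Or.inr (Or.inl rfl)), D.z1⟩
      · exact ⟨Or.inr (Or.inl rfl), D.x1⟩
      · exact ⟨Or.inr (Or.inr (Or.inr rfl)), D.xz_ne_one⟩
    · rintro ⟨(h | h | h | h), h1⟩
      · exact absurd h h1
      · exact Or.inr (Or.inl h)
      · exact Or.inl h
      · exact Or.inr (Or.inr h)
  have hact : ∀ (y : ↥K) (a : G), a ∈ T → (y : G) * a * (y : G)⁻¹ ∈ T := by
    intro y a ha
    have h1 := (hTV a).mp ha
    refine (hTV _).mpr ⟨(Subgroup.mem_normalizer_iff.mp (hK y.2) a).mp h1.1, ?_⟩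
    intro e
    apply h1.2
    have e2 : a = (y : G)⁻¹ * ((y : G) * a * (y : G)⁻¹) * y := by group
    rw [e2, e]
    group
  letI : MulAction ↥K ↥T :=
    { smul := fun y a => ⟨(y : G) * a * (y : G)⁻¹, hact y a a.2⟩
      one_smul := fun a => Subtype.ext (by
        show ((1 : ↥K) : G) * (a : G) * ((1 : ↥K) : G)⁻¹ = a
        simp)
      mul_smul := fun k l a => Subtype.ext (by
        show ((k * l : ↥K) : G) * (a : G) * ((k * l : ↥K) : G)⁻¹ = (k : G) * ((l : G) * (a : G) * (l : G)⁻¹) * (k : G)⁻¹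
        simp only [Subgroup.coe_mul]
        group) }
  have hcard : Fintype.card ↥T = 3 := by
    rw [Fintype.card_coe]
    exact Finset.card_eq_three.mpr ⟨z, x, x * z, D.ne.symm, D.xz_ne_z.symm, D.xz_ne_x.symm, rfl⟩
  let e : ↥T ≃ Fin 3 := Fintype.equivFinOfCardEq hcard
  let F : ↥K →* Equiv.Perm (Fin 3) := (Equiv.permCongrHom e).toMonoidHom.comp (MulAction.toPermHom ↥K ↥T)
  have hker : F.ker = (centralizer (V : Set G)).subgroupOf K := by
    ext y
    rw [MonoidHom.mem_ker, Subgroup.mem_subgroupOf, Subgroup.mem_centralizer_iff]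
    constructor
    · intro h
      have h1 : MulAction.toPermHom ↥K ↥T y = 1 := by
        apply (Equiv.permCongrHom e).injective
        rw [map_one]
        exact h
      have h2 : ∀ a (ha : a ∈ T), (y : G) * a * (y : G)⁻¹ = a := by
        intro a ha
        have h3 := congrArg (fun σ : Equiv.Perm ↥T => ((σ ⟨a, ha⟩ : ↥T) : G)) h1
        exact h3
      intro v hv
      have h4 : ∀ a ∈ T, (y : G) * a = a * y := by
        intro a ha
        calc (y : G) * a = ((y : G) * a * (y : G)⁻¹) * y := by group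
          _ = a * y := by rw [h2 a ha]
      by_cases hv1 : v = 1
      · rw [hv1]
        simp
      · exact (h4 v ((hTV v).mpr ⟨hv, hv1⟩)).symm
    · intro h
      have h1 : MulAction.toPermHom ↥K ↥T y = 1 := by
        ext a
        show (y : G) * a * (y : G)⁻¹ = a
        have h2 := h a ((hTV a).mp a.2).1
        rw [← h2]
        group
      show (Equiv.permCongrHom e) (MulAction.toPermHom ↥K ↥T y) = 1
      rw [h1, map_one]
  refine ⟨F, ?_, hker⟩
  have h6 : (centralizer (V : Set G)).relIndex K = 6 := D.relIndex_K hV hK hq hp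
  have h7 : Nat.card F.range = 6 := by
    rw [← Subgroup.index_ker, hker]
    exact h6
  have h8 : F.range = ⊤ := by
    apply Subgroup.eq_top_of_card_eq
    rw [h7, Nat.card_eq_fintype_card, Fintype.card_perm]
    rfl
  exact MonoidHom.range_eq_top.mp h8

/-- The structure of `X`. -/
theorem main_X [Finite G] (S : Orth2 Q P z x) {V X R : Subgroup G} (hV : V = closure ({z, x} : Set G)) (hX : X = Q ⊔ P)
    (hR : R = Qx Q x ⊔ Qx P z) :
    R = X ⊓ centralizer (V : Set G) ∧ R = (pCore 2 ↥X).map X.subtype ∧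
      (∃ _ : (R.subgroupOf X).Normal, Nonempty (↥X ⧸ R.subgroupOf X ≃* Equiv.Perm (Fin 3))) ∧
      normalizer (V : Set G) = X ⊔ (centralizer ({z} : Set G) ⊓ centralizer (V : Set G)) ∧
      (∀ y ∈ normalizer (V : Set G), ∀ a ∈ X, y * a * y⁻¹ ∈ X) ∧
      R ≤ centralizer ({z} : Set G) ⊓ centralizer (V : Set G) ∧
      (∀ a ∈ X, ∀ c ∈ centralizer ({z} : Set G) ⊓ centralizer (V : Set G), a * c * a⁻¹ * c⁻¹ ∈ R) ∧
      X ⊓ (centralizer ({z} : Set G) ⊓ centralizer (V : Set G)) = R := by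
  classical
  subst hX hR
  have hV' : V = closure ({x, z} : Set G) := by rw [hV, Set.pair_comm]
  have hx1 : x ≠ 1 := S.esP.z_ne
  have hz1 : z ≠ 1 := S.esQ.z_ne
  obtain ⟨q, hq, hqc⟩ := ES'.exists_noncomm S.esQ S.xQ hx1 S.ne
  obtain ⟨p, hp, hpc⟩ := ES'.exists_noncomm S.esP S.zP hz1 S.ne.symm
  have hqx := ES'.conj_eq S.esQ hq S.xQ hqc
  have hpz := ES'.conj_eq S.esP hp S.zP hpc
  have D : VPair z x q p := ⟨S.esQ.z_sq, S.esP.z_sq, S.zx, hz1, hx1, S.ne, S.esQ.z_central q hq, hqx,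
    S.esP.z_central p hp, hpz⟩
  have hqX : q ∈ Q ⊔ P := Subgroup.mem_sup_left hq
  have hpX : p ∈ Q ⊔ P := Subgroup.mem_sup_right hp
  have hmem := fun {a : G} => D.mem_iff hV' (a := a)
  have hzV : z ∈ V := hmem.mpr (Or.inr (Or.inr (Or.inl rfl)))
  have hxV : x ∈ V := hmem.mpr (Or.inr (Or.inl rfl))
  have hXN : Q ⊔ P ≤ normalizer (V : Set G) := by
    apply sup_le
    · intro a ha
      exact mem_normalizer_of_map_le fun v hv => S.conj_V hV (Or.inl ha) hv
    · intro a ha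
      exact mem_normalizer_of_map_le fun v hv => S.conj_V hV (Or.inr ha) hv
  have hCV : ∀ c : G, c ∈ centralizer (V : Set G) ↔ c * z = z * c ∧ c * x = x * c := by
    intro c
    rw [Subgroup.mem_centralizer_iff]
    constructor
    · intro h
      exact ⟨(h z hzV).symm, (h x hxV).symm⟩
    · rintro ⟨h1, h2⟩ a ha
      rcases hmem.mp ha with rfl | rfl | rfl | rfl
      · simp
      · exact h2.symm
      · exact h1.symm
      · rw [mul_assoc x z c, ← h1, ← mul_assoc, ← h2, mul_assoc]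
  have hCz : centralizer (V : Set G) ≤ centralizer ({z} : Set G) := by
    intro c hc
    exact Subgroup.mem_centralizer_singleton_iff.mpr ((hCV c).mp hc).1
  have hRX : Qx Q x ⊔ Qx P z ≤ Q ⊔ P := R_le_X
  haveI hn : ((Qx Q x ⊔ Qx P z).subgroupOf (Q ⊔ P)).Normal :=
    (Subgroup.normal_subgroupOf_iff_le_normalizer hRX).mpr S.X_le_normalizer_R
  have hRC : Qx Q x ⊔ Qx P z ≤ centralizer (V : Set G) := by
    apply sup_le
    · intro a ha
      have ha' := mem_Qx.mp ha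
      exact (hCV a).mpr ⟨S.esQ.z_central a ha'.1, ha'.2⟩
    · intro a ha
      have ha' := mem_Qx.mp ha
      exact (hCV a).mpr ⟨ha'.2, S.esP.z_central a ha'.1⟩
  have hcard := S.card_quot_le_six hq hp hqc hpc
  have hrel := D.relIndex_K hV' hXN hqX hpX
  have hsub : (Qx Q x ⊔ Qx P z).subgroupOf (Q ⊔ P) = (centralizer (V : Set G)).subgroupOf (Q ⊔ P) := by
    apply Subgroup.eq_of_le_of_card_ge
    · intro y hy
      exact hRC hy
    · have h1 := Subgroup.card_mul_index ((Qx Q x ⊔ Qx P z).subgroupOf (Q ⊔ P))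
      have h2 := Subgroup.card_mul_index ((centralizer (V : Set G)).subgroupOf (Q ⊔ P))
      have h3 : ((centralizer (V : Set G)).subgroupOf (Q ⊔ P)).index = 6 := hrel
      have h4 : ((Qx Q x ⊔ Qx P z).subgroupOf (Q ⊔ P)).index ≤ 6 := hcard
      rw [h3] at h2
      have h5 := Nat.mul_le_mul_left (Nat.card ↥((Qx Q x ⊔ Qx P z).subgroupOf (Q ⊔ P))) h4
      rw [h1, ← h2] at h5
      exact Nat.le_of_mul_le_mul_right h5 (by norm_num)
  have hRD : Qx Q x ⊔ Qx P z = (Q ⊔ P) ⊓ centralizer (V : Set G) := by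
    apply le_antisymm
    · exact le_inf hRX hRC
    · intro y hy
      have hy' := Subgroup.mem_inf.mp hy
      have h1 : (⟨y, hy'.1⟩ : ↥(Q ⊔ P)) ∈ (centralizer (V : Set G)).subgroupOf (Q ⊔ P) := hy'.2
      rw [← hsub] at h1
      exact h1
  obtain ⟨F, hFs, hFk⟩ := exists_hom D hV' hXN hqX hpX
  have hFk' : F.ker = (Qx Q x ⊔ Qx P z).subgroupOf (Q ⊔ P) := hFk.trans hsub.symm
  have hcN : ∀ c ∈ centralizer (V : Set G), c ∈ normalizer ((Q ⊔ P : Subgroup G) : Set G) := by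
    intro c hc
    obtain ⟨h1, h2⟩ := (hCV c).mp hc
    apply mem_normalizer_of_map_le
    have h3 : Q ⊔ P ≤ (Q ⊔ P).comap (MulAut.conj c).toMonoidHom :=
      sup_le (fun a ha => Subgroup.mem_sup_left (S.nQ c h1 a ha)) (fun a ha => Subgroup.mem_sup_right (S.nP c h2 a ha))
    exact fun a ha => h3 ha
  have hNV : normalizer (V : Set G) = (Q ⊔ P) ⊔ (centralizer ({z} : Set G) ⊓ centralizer (V : Set G)) := by
    apply le_antisymm
    · intro n hn
      have hconj1 : ∀ (k a : G), a ≠ 1 → k * a * k⁻¹ ≠ 1 := by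
        intro k a ha e
        apply ha
        have e2 : a = k⁻¹ * (k * a * k⁻¹) * k := by group
        rw [e2, e]
        group
      obtain ⟨y₁, hy₁, hy₁z⟩ : ∃ y₁ ∈ Q ⊔ P, y₁ * z * y₁⁻¹ = n * z * n⁻¹ := by
        have h1 := (Subgroup.mem_normalizer_iff.mp hn z).mp hzV
        rcases hmem.mp h1 with h2 | h2 | h2 | h2
        · exact absurd h2 (hconj1 _ _ hz1)
        · refine ⟨q * p, Subgroup.mul_mem _ hqX hpX, ?_⟩
          rw [h2]
          calc (q * p) * z * (q * p)⁻¹ = q * (p * z * p⁻¹) * q⁻¹ := by group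
            _ = (q * x * q⁻¹) * (q * z * q⁻¹) := by rw [D.pz]; group
            _ = z * x * z := by rw [D.qx, D.q_conj_z]
            _ = x * (z * z) := by rw [D.zx, mul_assoc]
            _ = x := by rw [D.zz, mul_one]
        · exact ⟨1, Subgroup.one_mem _, by rw [h2]; group⟩
        · exact ⟨p, hpX, by rw [h2, D.pz]⟩
      have hn₁ : y₁⁻¹ * n ∈ normalizer (V : Set G) :=
        Subgroup.mul_mem _ (Subgroup.inv_mem _ (hXN hy₁)) hn
      have hn₁z : (y₁⁻¹ * n) * z * (y₁⁻¹ * n)⁻¹ = z := by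
        calc (y₁⁻¹ * n) * z * (y₁⁻¹ * n)⁻¹ = y₁⁻¹ * (n * z * n⁻¹) * y₁ := by group
          _ = y₁⁻¹ * (y₁ * z * y₁⁻¹) * y₁ := by rw [hy₁z]
          _ = z := by group
      obtain ⟨y₂, hy₂, hy₂z, hy₂x⟩ : ∃ y₂ ∈ Q ⊔ P, y₂ * z * y₂⁻¹ = z ∧
          y₂ * x * y₂⁻¹ = (y₁⁻¹ * n) * x * (y₁⁻¹ * n)⁻¹ := by
        have h1 := (Subgroup.mem_normalizer_iff.mp hn₁ x).mp hxV
        rcases hmem.mp h1 with h2 | h2 | h2 | h2
        · exact absurd h2 (hconj1 _ _ hx1)
        · exact ⟨1, Subgroup.one_mem _, by group, by rw [h2]; group⟩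
        · exfalso
          rw [← hn₁z] at h2
          exact S.ne (mul_left_cancel (mul_right_cancel h2))
        · exact ⟨q, hqX, D.q_conj_z, by rw [h2, D.qx, D.zx]⟩
      have hn₂ : y₂⁻¹ * (y₁⁻¹ * n) ∈ centralizer (V : Set G) := by
        refine (hCV _).mpr ⟨?_, ?_⟩
        · have e : (y₂⁻¹ * (y₁⁻¹ * n)) * z * (y₂⁻¹ * (y₁⁻¹ * n))⁻¹ = z := by
            calc (y₂⁻¹ * (y₁⁻¹ * n)) * z * (y₂⁻¹ * (y₁⁻¹ * n))⁻¹ = y₂⁻¹ * ((y₁⁻¹ * n) * z * (y₁⁻¹ * n)⁻¹) * y₂ := by group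
              _ = y₂⁻¹ * (y₂ * z * y₂⁻¹) * y₂ := by rw [hn₁z, hy₂z]
              _ = z := by group
          calc (y₂⁻¹ * (y₁⁻¹ * n)) * z = ((y₂⁻¹ * (y₁⁻¹ * n)) * z * (y₂⁻¹ * (y₁⁻¹ * n))⁻¹) * (y₂⁻¹ * (y₁⁻¹ * n)) := by group
            _ = z * (y₂⁻¹ * (y₁⁻¹ * n)) := by rw [e]
        · have e : (y₂⁻¹ * (y₁⁻¹ * n)) * x * (y₂⁻¹ * (y₁⁻¹ * n))⁻¹ = x := by
            calc (y₂⁻¹ * (y₁⁻¹ * n)) * x * (y₂⁻¹ * (y₁⁻¹ * n))⁻¹ = y₂⁻¹ * ((y₁⁻¹ * n) * x * (y₁⁻¹ * n)⁻¹) * y₂ := by group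
              _ = y₂⁻¹ * (y₂ * x * y₂⁻¹) * y₂ := by rw [hy₂x]
              _ = x := by group
          calc (y₂⁻¹ * (y₁⁻¹ * n)) * x = ((y₂⁻¹ * (y₁⁻¹ * n)) * x * (y₂⁻¹ * (y₁⁻¹ * n))⁻¹) * (y₂⁻¹ * (y₁⁻¹ * n)) := by group
            _ = x * (y₂⁻¹ * (y₁⁻¹ * n)) := by rw [e]
      have e : n = (y₁ * y₂) * (y₂⁻¹ * (y₁⁻¹ * n)) := by group
      rw [e]
      exact Subgroup.mul_mem_sup (Subgroup.mul_mem _ hy₁ hy₂) (Subgroup.mem_inf.mpr ⟨hCz hn₂, hn₂⟩)
    · apply sup_le hXN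
      intro c hc
      refine mem_normalizer_of_map_le fun v hv => ?_
      have h1 := Subgroup.mem_centralizer_iff.mp (Subgroup.mem_inf.mp hc).2 v hv
      rw [← h1]
      simpa using hv
  refine ⟨hRD, ?_, ⟨hn, ⟨?_⟩⟩, hNV, ?_, hRC.trans (le_inf hCz le_rfl), ?_, ?_⟩
  · apply le_antisymm
    · intro y hy
      have hp2 : IsPGroup 2 ↥((Qx Q x ⊔ Qx P z).subgroupOf (Q ⊔ P)) := by
        intro u
        refine ⟨2, ?_⟩
        apply Subtype.ext
        apply Subtype.ext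
        show ((u : ↥(Q ⊔ P)) : G) ^ (2 ^ 2) = 1
        have hu : ((u : ↥(Q ⊔ P)) : G) ∈ Qx Q x ⊔ Qx P z := u.2
        have h1 := (S.comm_sq_R hu hu).2
        have h2 := S.inter_sq h1
        rw [show (2 : ℕ) ^ 2 = 2 + 2 by norm_num, pow_add, pow_two]
        exact h2
      have h1 := Cfsg.Agent.Lib.Basic.le_pCore hn hp2
      have h2 : (⟨y, hRX hy⟩ : ↥(Q ⊔ P)) ∈ (Qx Q x ⊔ Qx P z).subgroupOf (Q ⊔ P) := hy
      exact ⟨_, h1 h2, rfl⟩
    · rintro _ ⟨a, ha, rfl⟩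
      have h1 : F a = 1 := perm3_normal_two F hFs (pCore 2 ↥(Q ⊔ P))
        (Cfsg.Agent.Lib.Basic.pCore_isPGroup 2) ha
      have h2 : a ∈ F.ker := h1
      rw [hFk'] at h2
      exact h2
  · exact (QuotientGroup.quotientMulEquivOfEq hFk'.symm).trans (QuotientGroup.quotientKerEquivOfSurjective F hFs)
  · intro y hy a ha
    rw [hNV] at hy
    have h1 : (Q ⊔ P) ⊔ (centralizer ({z} : Set G) ⊓ centralizer (V : Set G)) ≤ normalizer ((Q ⊔ P : Subgroup G) : Set G) :=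
      sup_le Subgroup.le_normalizer (inf_le_right.trans fun c hc => hcN c hc)
    exact (Subgroup.mem_normalizer_iff.mp (h1 hy) a).mp ha
  · intro a ha c hc
    have hc' := (Subgroup.mem_inf.mp hc).2
    rw [hRD]
    refine Subgroup.mem_inf.mpr ⟨?_, ?_⟩
    · have e : a * c * a⁻¹ * c⁻¹ = a * (c * a⁻¹ * c⁻¹) := by group
      rw [e]
      exact Subgroup.mul_mem _ ha ((Subgroup.mem_normalizer_iff.mp (hcN c hc') _).mp (Subgroup.inv_mem _ ha))
    · refine Subgroup.mul_mem _ ?_ (Subgroup.inv_mem _ hc')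
      refine Subgroup.mem_centralizer_iff.mpr fun v hv => ?_
      have h1 : a⁻¹ * v * a ∈ V := by
        have := (Subgroup.mem_normalizer_iff.mp (Subgroup.inv_mem _ (hXN ha)) v).mp hv
        rwa [inv_inv] at this
      have h2 := Subgroup.mem_centralizer_iff.mp hc' _ h1
      calc v * (a * c * a⁻¹) = a * ((a⁻¹ * v * a) * c) * a⁻¹ := by group
        _ = a * (c * (a⁻¹ * v * a)) * a⁻¹ := by rw [h2]
        _ = a * c * a⁻¹ * v := by group
  · rw [hRD]
    rw [inf_eq_right.mpr hCz]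

end Orth2

end Cfsg.Agent.Lib.LargeX
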